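import Cfsg.Agent.H40.BlockSquares
import Cfsg.Agent.H40.InducedBlocks
import Cfsg.Agent.H26.CoverDefect
import Cfsg.Agent.H22.BlockTransport
import Cfsg.Agent.H41.Covering
import Cfsg.Agent.H25.TwoDegrees

/-!
# Fong: the blocks of largest defect above an invariant block
-/

set_option autoImplicit false
set_option linter.unusedSectionVars false

namespace Cfsg.Agent.H40

open Cfsg
open scoped ComplexConjugate
open Cfsg.Agent.H41 (twistIrr twistIrr_apply)
open Cfsg.Agent.H43 (irrCongr irrCongr_apply)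
open Cfsg.Agent.H26 (CoversG)

/-- An automorphism fixing a block moves defect groups to defect groups. -/
theorem isDefectGroup_map_of_image_eq {H : Type*} [Group H] [Finite H] {p : ℕ} [Fact p.Prime]
    {M : Ideal Cfsg.AlgInt} [M.IsMaximal] {b : Set (Cfsg.IrrCharacter H)} (e : H ≃* H)
    (he : irrCongr e '' b = b) {D : Subgroup H} (hD : Cfsg.IsDefectGroup p M b D) :
    Cfsg.IsDefectGroup p M b (D.map e.symm.toMonoidHom) := by
  obtain ⟨g, hg, hDg⟩ := isDefectGroup_iff.1 hD
  have hco : Cfsg.blockCoeff b (e.symm g) = Cfsg.blockCoeff b g := by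
    have h := Cfsg.Agent.H22.blockCoeff_image e b (e.symm g)
    rwa [he, e.apply_symm_apply] at h
  refine isDefectGroup_iff.2 ⟨e.symm g, ⟨by rw [hco]; exact hg.1, by rw [hco]; exact hg.2.1,
    fun χ hχ => ?_⟩, Subgroup.map_le_iff_le_comap.2 fun x hx => ?_, hDg.2.1.map _, ?_⟩
  · obtain ⟨χ', hχ', rfl⟩ := (he.symm ▸ hχ : χ ∈ irrCongr e '' b)
    rw [Cfsg.Agent.H22.centralChar_irrCongr, e.apply_symm_apply]
    exact hg.2.2 χ' hχ'
  · have h := Subgroup.mem_centralizer_singleton_iff.1 (hDg.1 hx)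
    rw [Subgroup.mem_comap, Subgroup.mem_centralizer_singleton_iff]
    simpa using congrArg e.symm h
  · have hc : Subgroup.centralizer ({e.symm g} : Set H) =
        (Subgroup.centralizer ({g} : Set H)).map e.symm.toMonoidHom := by
      ext x
      rw [Subgroup.mem_map_equiv, MulEquiv.symm_symm, Subgroup.mem_centralizer_singleton_iff,
        Subgroup.mem_centralizer_singleton_iff, ← e.injective.eq_iff]
      simp
    rw [hc, Subgroup.relIndex_map_map_of_injective _ _ e.symm.injective]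
    exact hDg.2.2

variable {G : Type*} [Group G] [Fintype G] {p : ℕ} [Fact p.Prime] {M : Ideal Cfsg.AlgInt}
  {N : Subgroup G} [N.Normal] [Fintype N] {b : Set (Cfsg.IrrCharacter N)}

/-- The trace on `N` of a defect group of a block covering an invariant block. -/
theorem isDefectGroup_inf_of_invariant (hM : Cfsg.IsPModular p M) (hb : Cfsg.IsPBlock M b)
    (hinv : ∀ (g : G), ∀ θ ∈ b, twistIrr N θ g ∈ b) {B : Set (Cfsg.IrrCharacter G)}
    (hB : Cfsg.IsPBlock M B) (hcov : ∃ χ ∈ B, CoversG b χ) {P : Subgroup G}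
    (hP : Cfsg.IsDefectGroup p M B P) :
    Cfsg.IsDefectGroup p M b ((P ⊓ N).subgroupOf N) := by
  have := hM.2.1
  obtain ⟨Q', hQ'⟩ := exists_isDefectGroup hM hb
  let Q : Subgroup G := Q'.map N.subtype
  have hQN : Q ≤ N := Subgroup.map_subtype_le Q'
  have hQ : Cfsg.IsDefectGroup p M b (Q.subgroupOf N) := by
    rwa [show Q.subgroupOf N = Q' from Subgroup.comap_map_eq_self_of_injective N.subtype_injective Q']
  obtain ⟨P', hP', hPQ⟩ := Cfsg.Agent.H26.exists_defectGroup_inf_eq hM hb hQN hQ hB hcov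
  obtain ⟨x, hx⟩ := subConj_defectGroup hM hB hP' hP
  have heq : Cfsg.Agent.H23.rconj x P' = P := Subgroup.eq_of_le_of_card_ge hx (by
    rw [Cfsg.Agent.H23.card_rconj, card_defectGroup hM hB hP', card_defectGroup hM hB hP])
  let e : N ≃* N := MulAut.conjNormal x
  have himg : ∀ (θ : Cfsg.IrrCharacter N), irrCongr e θ = twistIrr N θ x := fun θ =>
    Subtype.ext (funext fun n => rfl)
  have he : irrCongr e '' b = b := by
    refine Set.Subset.antisymm ?_ fun θ hθ => ⟨twistIrr N θ x⁻¹, hinv _ θ hθ, ?_⟩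
    · rintro _ ⟨θ, hθ, rfl⟩
      rw [himg]
      exact hinv x θ hθ
    · rw [himg, Cfsg.Agent.H41.twistIrr_twistIrr, inv_mul_cancel, Cfsg.Agent.H41.twistIrr_one]
  have h := isDefectGroup_map_of_image_eq e he hQ
  rwa [show (Q.subgroupOf N).map e.symm.toMonoidHom = (P ⊓ N).subgroupOf N from ?_] at h
  ext n
  rw [Subgroup.mem_map_equiv, MulEquiv.symm_symm, Subgroup.mem_subgroupOf, Subgroup.mem_subgroupOf,
    ← hPQ, ← heq, Subgroup.mem_inf, Subgroup.mem_inf, Cfsg.Agent.H23.mem_rconj,
    show ((e n : N) : G) = x * n * x⁻¹ from rfl]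
  exact ⟨fun h => ⟨h.1, n.2⟩, fun h => ⟨h.1, (e n).2⟩⟩

open scoped Classical in
/-- The squares of the degrees above an invariant block add up to the index times those below. -/
theorem sum_covers_sq_eq (hinv : ∀ (g : G), ∀ θ ∈ b, twistIrr N θ g ∈ b) :
    ∑ χ ∈ Finset.univ.filter (fun χ : Cfsg.IrrCharacter G => CoversG b χ),
        Cfsg.charDegree (χ : G → ℂ) * Cfsg.charDegree (χ : G → ℂ) =
      N.index * ∑ θ ∈ Finset.univ.filter (· ∈ b),
        Cfsg.charDegree (θ : N → ℂ) * Cfsg.charDegree (θ : N → ℂ) := by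
  choose m hm hdec using fun χ : Cfsg.IrrCharacter G => Cfsg.Agent.H26.exists_nat_coeffs
    (Cfsg.Agent.H26.isCharacter_comp (Cfsg.Agent.H26.irr_isCharacter χ) N.subtype)
  have hm' : ∀ (χ : Cfsg.IrrCharacter G) (θ : Cfsg.IrrCharacter N),
      Cfsg.classInner (fun n : N => (χ : G → ℂ) n) (θ : N → ℂ) = (m χ θ : ℂ) := hm
  -- induced degrees
  have hind : ∀ θ : Cfsg.IrrCharacter N,
      ∑ χ : Cfsg.IrrCharacter G, Cfsg.charDegree (χ : G → ℂ) * m χ θ =
        N.index * Cfsg.charDegree (θ : N → ℂ) := by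
    intro θ
    apply Nat.cast_injective (R := ℂ)
    push_cast
    simp only [← hm', Cfsg.classInner, ← Cfsg.Agent.H42.irr_one_eq, Finset.mul_sum]
    rw [Finset.sum_comm, Finset.sum_eq_single (1 : N)]
    · have h := Cfsg.Agent.H26.column_orthogonality (G := G) (1 : G) 1
      rw [Cfsg.Agent.H26.classIndicator, if_pos (IsConj.refl _), mul_one,
        show Subgroup.centralizer ({(1 : G)} : Set G) = ⊤ from by
          ext; simp [Subgroup.mem_centralizer_singleton_iff], Subgroup.card_top,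
        Finset.sum_congr rfl fun χ _ => by rw [Cfsg.Agent.H42.irr_one_eq, Complex.conj_natCast]] at h
      simp only [OneMemClass.coe_one, Cfsg.Agent.H42.irr_one_eq, Complex.conj_natCast]
      rw [show (∑ χ : Cfsg.IrrCharacter G, (Cfsg.charDegree (χ : G → ℂ) : ℂ) *
          ((Nat.card N : ℂ)⁻¹ * ((Cfsg.charDegree (χ : G → ℂ) : ℂ) *
            (Cfsg.charDegree (θ : N → ℂ) : ℂ)))) =
          (∑ χ : Cfsg.IrrCharacter G, (Cfsg.charDegree (χ : G → ℂ) : ℂ) *
            (Cfsg.charDegree (χ : G → ℂ) : ℂ)) * ((Nat.card N : ℂ)⁻¹ *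
            (Cfsg.charDegree (θ : N → ℂ) : ℂ)) from by
        rw [Finset.sum_mul]; exact Finset.sum_congr rfl fun _ _ => by ring, h,
        ← Subgroup.card_mul_index N, Nat.cast_mul]
      field_simp [Nat.cast_ne_zero.2 (Nat.card_pos (α := N)).ne']
    · intro n _ hn
      have h := Cfsg.Agent.H26.column_orthogonality (G := G) (n : G) 1
      rw [Cfsg.Agent.H26.classIndicator, if_neg (fun hc => hn (Subtype.ext (isConj_one_left.1 hc))),
        mul_zero, Finset.sum_congr rfl fun χ _ => by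
          rw [Cfsg.Agent.H42.irr_one_eq, Complex.conj_natCast]] at h
      simp only [Cfsg.Agent.H42.irr_one_eq]
      rw [show (∑ χ : Cfsg.IrrCharacter G, (Cfsg.charDegree (χ : G → ℂ) : ℂ) *
          ((Nat.card N : ℂ)⁻¹ * ((χ : G → ℂ) (n : G) * conj ((θ : N → ℂ) n)))) =
          (∑ χ : Cfsg.IrrCharacter G, (χ : G → ℂ) (n : G) *
            (Cfsg.charDegree (χ : G → ℂ) : ℂ)) * ((Nat.card N : ℂ)⁻¹ * conj ((θ : N → ℂ) n)) from by
        rw [Finset.sum_mul]; exact Finset.sum_congr rfl fun _ _ => by ring, h, zero_mul]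
    · intro h
      exact absurd (Finset.mem_univ _) h
  -- the degree of a covering character
  have hdeg : ∀ χ : Cfsg.IrrCharacter G, ∑ θ ∈ Finset.univ.filter (· ∈ b),
      m χ θ * Cfsg.charDegree (θ : N → ℂ) =
        if CoversG b χ then Cfsg.charDegree (χ : G → ℂ) else 0 := by
    intro χ
    split
    · rename_i hc
      obtain ⟨θ₁, hθ₁, hc⟩ := hc
      apply Nat.cast_injective (R := ℂ)
      have h1 := congrFun (hdec χ) (1 : N)
      rw [Finset.sum_apply] at h1
      rw [← Cfsg.Agent.H42.irr_one_eq χ]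
      refine Eq.trans ?_ h1.symm
      push_cast
      refine (Finset.sum_congr rfl fun θ _ => ?_).trans
        (Finset.sum_subset (Finset.subset_univ _) fun θ _ hθ => ?_)
      · rw [Pi.smul_apply, smul_eq_mul, Cfsg.Agent.H42.irr_one_eq]
      · by_cases h0 : m χ θ = 0
        · simp [h0]
        · obtain ⟨g, hg⟩ := Cfsg.Agent.H41.exists_twistIrr_eq N χ hc (φ := θ)
            (by rw [hm']; exact Nat.cast_ne_zero.2 h0)
          exact absurd (Finset.mem_filter.2 ⟨Finset.mem_univ _, hg ▸ hinv g θ₁ hθ₁⟩) hθ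
    · rename_i hc
      refine Finset.sum_eq_zero fun θ hθ => ?_
      by_cases h0 : m χ θ = 0
      · simp [h0]
      · exact absurd ⟨θ, (Finset.mem_filter.1 hθ).2, by rw [hm']; exact Nat.cast_ne_zero.2 h0⟩ hc
  calc ∑ χ ∈ Finset.univ.filter (fun χ : Cfsg.IrrCharacter G => CoversG b χ),
        Cfsg.charDegree (χ : G → ℂ) * Cfsg.charDegree (χ : G → ℂ)
      = ∑ χ : Cfsg.IrrCharacter G, Cfsg.charDegree (χ : G → ℂ) *
          ∑ θ ∈ Finset.univ.filter (· ∈ b), m χ θ * Cfsg.charDegree (θ : N → ℂ) := by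
        rw [Finset.sum_filter]
        exact Finset.sum_congr rfl fun χ _ => by rw [hdeg]; split <;> simp
    _ = _ := by
        simp only [Finset.mul_sum]
        rw [Finset.sum_comm]
        refine Finset.sum_congr rfl fun θ _ => ?_
        rw [← mul_assoc, ← hind, Finset.sum_mul]
        exact Finset.sum_congr rfl fun χ _ => by ring

open scoped Classical in
/-- Fong's theorem. -/
theorem fong (hM : Cfsg.IsPModular p M) (hb : Cfsg.IsPBlock M b)
    (hinv : ∀ (g : G), ∀ θ ∈ b, twistIrr N θ g ∈ b) {B : Set (Cfsg.IrrCharacter G)}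
    (hB : Cfsg.IsPBlock M B) (hcov : ∃ χ ∈ B, CoversG b χ)
    (hmax : ∀ B' : Set (Cfsg.IrrCharacter G), Cfsg.IsPBlock M B' → (∃ χ ∈ B', CoversG b χ) →
      Cfsg.blockDefect p B' ≤ Cfsg.blockDefect p B)
    {P : Subgroup G} (hP : Cfsg.IsDefectGroup p M B P) :
    ¬ p ∣ (P ⊔ N).index ∧ Cfsg.IsDefectGroup p M b ((P ⊓ N).subgroupOf N) ∧
      Cfsg.blockDefect p B = Cfsg.blockDefect p b + N.index.factorization p := by
  have := hM.2.1
  have hp : p.Prime := Fact.out
  have hD := isDefectGroup_inf_of_invariant hM hb hinv hB hcov hP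
  -- the upper bound
  have hle : N.index.factorization p + Cfsg.blockDefect p b =
      Cfsg.blockDefect p B + (P ⊔ N).index.factorization p := by
    have h1 : (N.relIndex P * Nat.card (P ⊓ N : Subgroup G)) = Nat.card P := by
      rw [← Subgroup.inf_relIndex_left, mul_comm, ← Subgroup.relIndex_bot_left,
        ← Subgroup.relIndex_bot_left, Subgroup.relIndex_mul_relIndex _ _ _ bot_le inf_le_left]
    have h2 : N.relIndex P * (P ⊔ N).index = N.index := by
      rw [← Subgroup.relIndex_sup_right, Subgroup.relIndex_mul_index le_sup_right]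
    rw [card_defectGroup hM hB hP,
      ← Nat.card_congr (Subgroup.subgroupOfEquivOfLe (inf_le_right : P ⊓ N ≤ N)).toEquiv,
      card_defectGroup hM hb hD] at h1
    have h1' := congrArg (fun n => n.factorization p) h1
    rw [Nat.factorization_mul (show N.relIndex P ≠ 0 from Subgroup.index_ne_zero_of_finite)
        (pow_ne_zero _ hp.ne_zero),
      Finsupp.add_apply, hp.factorization_pow, hp.factorization_pow, Finsupp.single_eq_same,
      Finsupp.single_eq_same] at h1'
    rw [← h2, Nat.factorization_mul (show N.relIndex P ≠ 0 from Subgroup.index_ne_zero_of_finite)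
      Subgroup.index_ne_zero_of_finite, Finsupp.add_apply]
    omega
  -- the lower bound
  let n := (Nat.card G).factorization p
  let d := Cfsg.blockDefect p B
  have hdvd : p ^ (n + (n - d)) ∣
      ∑ χ ∈ Finset.univ.filter (fun χ : Cfsg.IrrCharacter G => CoversG b χ),
        Cfsg.charDegree (χ : G → ℂ) * Cfsg.charDegree (χ : G → ℂ) := by
    rw [← Finset.sum_fiberwise_of_maps_to (t := (Finset.univ.filter
      (fun χ : Cfsg.IrrCharacter G => CoversG b χ)).image
        fun χ : Cfsg.IrrCharacter G => Cfsg.blockOf M (χ : G → ℂ))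
      (g := fun χ : Cfsg.IrrCharacter G => Cfsg.blockOf M (χ : G → ℂ)) fun χ hχ => Finset.mem_image_of_mem _ hχ]
    refine Finset.dvd_sum fun B' hB' => ?_
    obtain ⟨χ₁, hχ₁, rfl⟩ := Finset.mem_image.1 hB'
    have hc₁ := (Finset.mem_filter.1 hχ₁).2
    let S := Cfsg.Agent.H26.frSetup_blockStab hb
    have hB1 := Cfsg.Agent.H41.isPBlock_blockOf (M := M) χ₁
    have hfib : (Finset.univ.filter (fun χ : Cfsg.IrrCharacter G => CoversG b χ)).filter
        (fun χ : Cfsg.IrrCharacter G => Cfsg.blockOf M (χ : G → ℂ) = Cfsg.blockOf M (χ₁ : G → ℂ)) =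
        Finset.univ.filter (fun χ : Cfsg.IrrCharacter G => χ ∈ Cfsg.blockOf M (χ₁ : G → ℂ)) := by
      have : Fintype (Cfsg.Agent.H26.blockStab N b) := Fintype.ofFinite _
      ext χ
      simp only [Finset.mem_filter, Finset.mem_univ, true_and]
      refine ⟨fun h => h.2 ▸ Cfsg.Agent.H41.mem_blockOf_self χ, fun h => ⟨?_, ?_⟩⟩
      · exact S.coversG_congr h hc₁
      · exact (Cfsg.Agent.H41.blockOf_eq_of_sameBlock h).symm
    rw [hfib]
    refine (pow_dvd_pow p ?_).trans (Nat.ordProj_dvd _ p)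
    rw [factorization_sum_block_sq hM hB1]
    have := hmax _ hB1 ⟨χ₁, Cfsg.Agent.H41.mem_blockOf_self χ₁, hc₁⟩
    rw [Cfsg.blockDefect] at this
    omega
  rw [sum_covers_sq_eq hinv] at hdvd
  obtain ⟨θ, hθ⟩ := Cfsg.Agent.H41.IsPBlock.nonempty hb
  have hpos : (∑ θ ∈ Finset.univ.filter (· ∈ b),
      Cfsg.charDegree (θ : N → ℂ) * Cfsg.charDegree (θ : N → ℂ)) ≠ 0 :=
    (Finset.sum_pos (fun θ _ => Nat.mul_pos (Cfsg.Agent.H42.charDegree_pos θ)
      (Cfsg.Agent.H42.charDegree_pos θ)) ⟨θ, Finset.mem_filter.2 ⟨Finset.mem_univ _, hθ⟩⟩).ne'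
  have hv := (hp.pow_dvd_iff_le_factorization
    (Nat.mul_ne_zero N.index_ne_zero_of_finite hpos)).1 hdvd
  rw [Nat.factorization_mul N.index_ne_zero_of_finite hpos, Finsupp.add_apply,
    factorization_sum_block_sq hM hb] at hv
  have hn : n = (Nat.card N).factorization p + N.index.factorization p := by
    show (Nat.card G).factorization p = _
    rw [← N.card_mul_index, Nat.factorization_mul Nat.card_pos.ne' N.index_ne_zero_of_finite,
      Finsupp.add_apply]
  have hab : sInf ((fun χ : Cfsg.IrrCharacter N =>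
      (Cfsg.charDegree (χ : N → ℂ)).factorization p) '' b) + Cfsg.blockDefect p b =
      (Nat.card N).factorization p := by
    rw [Cfsg.blockDefect]
    refine Nat.add_sub_cancel' ((Nat.sInf_le (Set.mem_image_of_mem _ hθ)).trans ?_)
    exact (Nat.factorization_le_iff_dvd (Cfsg.Agent.H42.charDegree_pos θ).ne' Nat.card_pos.ne').2
      (Cfsg.Agent.H25.charDegree_dvd_card θ) p
  refine ⟨fun h => ?_, hD, ?_⟩
  · have h3 := hp.factorization_pos_of_dvd Subgroup.index_ne_zero_of_finite h
    omega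
  · omega

end Cfsg.Agent.H40
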