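import Cfsg.Agent.H40.FirstMain
import Cfsg.Agent.H40.SectionApps
import Cfsg.Agent.H40.HeightZero

/-!
# Where central characters are units
-/

set_option autoImplicit false
set_option linter.unusedSectionVars false

namespace Cfsg.Agent.H40

open Cfsg.Agent.H23 (IsSylowIn rconj mem_rconj)
open Cfsg.Agent.H41 (omegaBar classSumZ ResField)

variable {G : Type*} [Group G] [Finite G] {p : ℕ} [Fact p.Prime] {M : Ideal Cfsg.AlgInt}
  [M.IsMaximal]

theorem memLocalIdeal_zero : Cfsg.MemLocalIdeal M 0 :=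
  ⟨0, 1, M.zero_mem, (Ideal.ne_top_iff_one M).1 Ideal.IsPrime.ne_top', by simp⟩

/-- A class with unit central character has a member centralising a defect group with `p`-part
in its centre. -/
theorem exists_conj_pPart_center (hM : Cfsg.IsPModular p M) {B : Set (Cfsg.IrrCharacter G)}
    (hB : Cfsg.IsPBlock M B) {P : Subgroup G} (hP : Cfsg.IsDefectGroup p M B P)
    {χ : Cfsg.IrrCharacter G} (hχ : χ ∈ B) {g : G}
    (hg : ¬ Cfsg.MemLocalIdeal M (Cfsg.centralChar (χ : G → ℂ) g)) :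
    ∃ x : G, IsConj g x ∧ x ∈ Subgroup.centralizer (P : Set G) ∧
      ∀ z : G, Cfsg.IsPPart p x z → z ∈ P ∧ ∀ w ∈ P, z * w = w * z := by
  obtain ⟨b, hb, hbD, hind⟩ := exists_inducing_block hM hB hP
  obtain ⟨ξ, hξ⟩ := Cfsg.Agent.H41.IsPBlock.nonempty hb
  have hPp := isPGroup_of_isDefectGroup hP
  have hne : omegaBar M ξ (brauerZ P (Subgroup.normalizer (P : Set G)) le_rfl
      (classSumZ (ResField M) g)) ≠ 0 := by
    rw [← omegaBar_restrictZ_eq_brauerZ hM hPp Subgroup.le_normalizer le_rfl,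
      omegaBar_restrictZ_of_isInducedBlock hind hξ hχ]
    exact fun e => hg ((Cfsg.Agent.H41.omegaBar_classSumZ_eq_zero_iff M χ g).1 e)
  obtain ⟨c, hcg, hcP, hc⟩ := exists_of_omegaBar_brauerZ_ne_zero _ _ _ hM ξ hne
  have hval : (ξ : Subgroup.normalizer (P : Set G) → ℂ) c ≠ 0 := fun e => hc (by
    rw [Cfsg.centralChar, e, mul_zero, zero_div]
    exact memLocalIdeal_zero)
  refine ⟨c, hcg, hcP, fun z hz => ?_⟩
  obtain ⟨z₀, hz₀⟩ := exists_isPPart p c
  have hzeq : z = (z₀ : G) :=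
    isPPart_unique hz (IsPPart.map_injective (Subgroup.normalizer (P : Set G)).subtype_injective hz₀)
  have hmem : ∃ E, Cfsg.IsDefectGroup p M (Cfsg.blockOf M (ξ : _ → ℂ)) E ∧ z₀ ∈ E := by
    by_contra hn
    push Not at hn
    exact hval (eq_zero_of_pPart_notMem_defectGroup hM ξ hz₀ hn)
  obtain ⟨E, hE, hzE⟩ := hmem
  rw [← Cfsg.Agent.H41.eq_blockOf_of_mem hb hξ] at hE
  have hle : P.subgroupOf (Subgroup.normalizer (P : Set G)) ≤ E :=
    subConj_subgroupOf_normalizer Subgroup.le_normalizer le_rfl (subConj_defectGroup hM hb hbD hE)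
  have heq := Subgroup.eq_of_le_of_card_ge hle (subConj_defectGroup hM hb hE hbD).card_le
  rw [← heq] at hzE
  refine ⟨hzeq ▸ hzE, fun w hw => ?_⟩
  obtain ⟨k, hk⟩ := exists_pow_eq_of_isPPart hz
  rw [← hk]
  exact ((show Commute (c : G) w from (Subgroup.mem_centralizer_iff.1 hcP w hw).symm).pow_left k).eq

/-- The centre of a defect group of an induced block is fused into the centre of one of the
inducing block. -/
theorem exists_conj_mem_center_defectGroup (hM : Cfsg.IsPModular p M) {H : Subgroup G}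
    {b : Set (Cfsg.IrrCharacter H)} {B : Set (Cfsg.IrrCharacter G)}
    (hind : Cfsg.IsInducedBlock M H b B) {D : Subgroup H} (hD : Cfsg.IsDefectGroup p M b D)
    {P : Subgroup G} (hP : Cfsg.IsDefectGroup p M B P) {x : G} (hx : x ∈ P)
    (hxc : ∀ w ∈ P, x * w = w * x) :
    ∃ g : G, g * x * g⁻¹ ∈ D.map H.subtype ∧
      ∀ w ∈ D.map H.subtype, (g * x * g⁻¹) * w = w * (g * x * g⁻¹) := by
  obtain ⟨y, hy, hPy⟩ := isDefectGroup_iff.1 hP
  obtain ⟨χ, hχ⟩ := Cfsg.Agent.H41.IsPBlock.nonempty hind.2.1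
  obtain ⟨ξ, hξ⟩ := Cfsg.Agent.H41.IsPBlock.nonempty hind.1
  have hne : omegaBar M ξ (restrictZ M H (classSumZ (ResField M) (x * y))) ≠ 0 := by
    rw [omegaBar_restrictZ_of_isInducedBlock hind hξ hχ]
    exact fun e => not_memLocalIdeal_centralChar_mul hM hind.2.1 hy hχ hPy hx hxc
      ((Cfsg.Agent.H41.omegaBar_classSumZ_eq_zero_iff M χ _).1 e)
  obtain ⟨c, hcg, -, hc⟩ := exists_of_omegaBar_brauerZ_ne_zero _ _ _ hM ξ hne
  obtain ⟨c', hcc', -, hpart⟩ := exists_conj_pPart_center hM hind.1 hD hξ hc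
  obtain ⟨z, hz⟩ := exists_isPPart p c'
  obtain ⟨hzD, hzc⟩ := hpart z hz
  obtain ⟨u, hu⟩ := isConj_iff.1 (hcg.trans (H.subtype.map_isConj hcc'))
  obtain ⟨j, hj⟩ := IsPGroup.iff_orderOf.1 hPy.2.1 ⟨x, hx⟩
  rw [Subgroup.orderOf_mk] at hj
  have hreg := not_dvd_orderOf_of_coeffUnit hM hind.2.1 (⟨hy.1, hy.2.1⟩ : CoeffUnit M B y)
  have hxy : Commute x y := Subgroup.mem_centralizer_singleton_iff.1 (hPy.1 hx)
  have h1 := isPPart_conj u (isPPart_mul hxy hj hreg)
  rw [hu] at h1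
  have e : u * x * u⁻¹ = (z : G) :=
    isPPart_unique h1 (IsPPart.map_injective H.subtype_injective hz)
  refine ⟨u, e ▸ ⟨z, hzD, rfl⟩, ?_⟩
  rintro _ ⟨w, hw, rfl⟩
  rw [e]
  exact congrArg Subtype.val (hzc w hw)

/-- Induction of blocks preserves defect zero in both directions. -/
theorem blockDefect_eq_zero_iff_of_isInducedBlock (hM : Cfsg.IsPModular p M) {H : Subgroup G}
    {b : Set (Cfsg.IrrCharacter H)} {B : Set (Cfsg.IrrCharacter G)}
    (hind : Cfsg.IsInducedBlock M H b B) :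
    Cfsg.blockDefect p b = 0 ↔ Cfsg.blockDefect p B = 0 := by
  obtain ⟨D, hD⟩ := exists_isDefectGroup hM hind.1
  have hcD := card_defectGroup hM hind.1 hD
  have h1 : 1 < p := (Fact.out : p.Prime).one_lt
  constructor
  · intro h0
    obtain ⟨P, hP⟩ := exists_isDefectGroup hM hind.2.1
    have hcP := card_defectGroup hM hind.2.1 hP
    by_contra hne
    have hnt : Nontrivial P := by
      rw [← Finite.one_lt_card_iff_nontrivial, hcP]
      exact Nat.one_lt_pow hne h1
    have := (isPGroup_of_isDefectGroup hP).center_nontrivial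
    obtain ⟨x, hx1⟩ := exists_ne (1 : Subgroup.center P)
    obtain ⟨g, hg, -⟩ := exists_conj_mem_center_defectGroup hM hind hD hP
      (x := ((x : P) : G)) (x : P).2 (fun w hw =>
        congrArg Subtype.val (Subgroup.mem_center_iff.1 x.2 ⟨w, hw⟩).symm)
    obtain ⟨d, hd, hdg⟩ := hg
    have hbot : D = ⊥ := Subgroup.eq_bot_of_card_eq D (by rw [hcD, h0, pow_zero])
    rw [hbot, SetLike.mem_coe, Subgroup.mem_bot] at hd
    rw [hd, map_one] at hdg
    exact hx1 (Subtype.ext (Subtype.ext (conj_eq_one_iff.1 hdg.symm)))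
  · intro h0
    obtain ⟨E, hE, hle⟩ := exists_defectGroup_ge_of_isInducedBlock hM hind hD
    have hc : Nat.card D ≤ 1 := by
      rw [← Subgroup.card_map_of_injective H.subtype_injective (K := D)]
      exact (Subgroup.card_le_of_le hle).trans (by rw [card_defectGroup hM hind.2.1 hE, h0, pow_zero])
    rw [hcD] at hc
    by_contra hne
    exact absurd (Nat.one_lt_pow hne h1) (by omega)

end Cfsg.Agent.H40
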