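import Cfsg.Agent.H40.KleinFour
import Cfsg.Agent.H32.BlockCount

/-!
# Counting characters of a block along normal chains of `p`-subgroups
-/

set_option autoImplicit false
set_option linter.unusedSectionVars false
set_option maxHeartbeats 400000

namespace Cfsg.Agent.H40.ChainCounts

open Cfsg.Agent.H43 (irrCongr)
open Cfsg.Agent.H41 (ResField omegaBar)

universe u

variable {G : Type u} [Group G] [Finite G] {p : ℕ} [Fact p.Prime] {M : Ideal Cfsg.AlgInt}
  [M.IsMaximal] {b : Set (Cfsg.IrrCharacter G)}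

/-- The characters of `H` in blocks inducing `b`. -/
def indUnion (M : Ideal Cfsg.AlgInt) (H : Subgroup G) (b : Set (Cfsg.IrrCharacter G)) :
    Set (Cfsg.IrrCharacter H) :=
  {ψ | ∃ β : Set (Cfsg.IrrCharacter H), ψ ∈ β ∧ Cfsg.IsInducedBlock M H β b}

/-- The sum of the ranks of the blocks of `K` inducing `b`. -/
noncomputable def rankSum (p : ℕ) (M : Ideal Cfsg.AlgInt) (K : Subgroup G)
    (b : Set (Cfsg.IrrCharacter G)) : ℕ :=
  ∑ᶠ γ ∈ {γ : Set (Cfsg.IrrCharacter K) | Cfsg.IsInducedBlock M K γ b}, Cfsg.blockRank p γ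

theorem indUnion_eq (H : Subgroup G) :
    indUnion M H b = ⋃ β ∈ {β : Set (Cfsg.IrrCharacter H) | Cfsg.IsInducedBlock M H β b}, β := by
  ext ψ; simp only [indUnion, Set.mem_iUnion, Set.mem_ofPred_eq, exists_prop, and_comm]

theorem pairwise_disjoint (H : Subgroup G) :
    ({β : Set (Cfsg.IrrCharacter H) | Cfsg.IsInducedBlock M H β b}).PairwiseDisjoint id := by
  intro β hβ β' hβ' hne
  refine Set.disjoint_left.2 fun ψ h h' => hne ?_
  exact H41.block_eq_of_mem_of_mem hβ.1 hβ'.1 h h'

theorem card_indUnion (H : Subgroup G) : Nat.card (indUnion M H b) =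
    ∑ᶠ β ∈ {β : Set (Cfsg.IrrCharacter H) | Cfsg.IsInducedBlock M H β b}, Nat.card β := by
  classical
  rw [finsum_mem_eq_finite_toFinset_sum _ (Set.toFinite _), indUnion_eq, Nat.card_coe_set_eq]
  simp only [Nat.card_coe_set_eq]
  rw [Set.ncard_eq_toFinset_card' , Finset.sum_congr rfl (fun β _ => Set.ncard_eq_toFinset_card' β)]
  rw [← Finset.card_biUnion]
  · congr 1
    ext ψ
    simp
  · intro β hβ β' hβ' hne
    refine Finset.disjoint_left.2 fun ψ h h' => hne ?_
    simp only [Finset.mem_coe, Set.Finite.mem_toFinset, Set.mem_ofPred_eq] at hβ hβ'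
    exact H41.block_eq_of_mem_of_mem hβ.1 hβ'.1 (Set.mem_toFinset.1 h) (Set.mem_toFinset.1 h')

open scoped Classical in
theorem blockRank_indUnion (hM : Cfsg.IsPModular p M) (H : Subgroup G) :
    Cfsg.blockRank p (indUnion M H b) = rankSum p M H b := by
  have := Fintype.ofFinite H
  rw [rankSum, finsum_mem_eq_finite_toFinset_sum _ (Set.toFinite _)]
  set S := (Set.toFinite {β : Set (Cfsg.IrrCharacter H) |
    Cfsg.IsInducedBlock M H β b}).toFinset with hS
  have hmem : ∀ β ∈ S, Cfsg.IsPBlock M β := fun β hβ => ((Set.Finite.mem_toFinset _).1 hβ).1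
  have hdis : (S : Set (Set (Cfsg.IrrCharacter H))).PairwiseDisjoint
      (fun β => Finset.univ.filter (· ∈ β)) := by
    intro β hβ β' hβ' hne
    refine Finset.disjoint_left.2 fun ψ h h' => hne ?_
    exact H41.block_eq_of_mem_of_mem (hmem β hβ) (hmem β' hβ') (Finset.mem_filter.1 h).2
      (Finset.mem_filter.1 h').2
  have hU : Finset.univ.filter (· ∈ indUnion M H b) =
      S.biUnion (fun β => Finset.univ.filter (· ∈ β)) := by
    ext ψ
    simp [hS, indUnion, and_comm]
  have hW : H32.WeakOrthogonal p (indUnion M H b) := by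
    intro x y hx hy
    rw [hU, Finset.sum_biUnion hdis]
    exact Finset.sum_eq_zero fun β hβ => H32.weakOrthogonal_of_isPBlock hM (hmem β hβ) x y hx hy
  have h : (Cfsg.blockRank p (indUnion M H b) : ℂ) = ∑ β ∈ S, (Cfsg.blockRank p β : ℂ) := by
    rw [← H32.trace_projKernel hW, Finset.sum_congr rfl (fun β hβ =>
      (H32.trace_projKernel (H32.weakOrthogonal_of_isPBlock hM (hmem β hβ))).symm), Finset.sum_comm]
    refine Finset.sum_congr rfl fun s _ => ?_
    simp only [H32.projKernel, Matrix.of_apply]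
    split_ifs
    · rw [hU, Finset.sum_biUnion hdis, Finset.mul_sum]
    · exact Finset.sum_const_zero.symm
  exact_mod_cast h

/-- The blocks inducing `b` from the whole group. -/
theorem rankSum_top (hM : Cfsg.IsPModular p M) (hb : Cfsg.IsPBlock M b) (K : Subgroup G)
    (hK : K = ⊤) : rankSum p M K b = Cfsg.blockRank p b := by
  classical
  subst hK
  let e : (⊤ : Subgroup G) ≃* G := Subgroup.topEquiv
  have hid : ∀ (γ : Set (Cfsg.IrrCharacter (⊤ : Subgroup G))) (B : Set (Cfsg.IrrCharacter G)),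
      Cfsg.IsInducedBlock M ⊤ γ B → irrCongr e.symm '' γ = B := by
    intro γ B hind
    have := Fintype.ofFinite G
    have he : ∀ k : (⊤ : Subgroup G), e k = (k : G) := fun _ => rfl
    obtain ⟨ξ, hξ⟩ := H41.IsPBlock.nonempty hind.1
    obtain ⟨χ, hχ⟩ := H41.IsPBlock.nonempty hind.2.1
    have hs : Cfsg.SameBlock M (irrCongr e.symm ξ : G → ℂ) (χ : G → ℂ) := by
      intro g
      convert hind.2.2 ξ hξ χ hχ g using 2
      rw [Cfsg.centralChar, Cfsg.inducedCentralChar, H25.index_centralizer_eq_card_class g,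
        finsum_mem_eq_finite_toFinset_sum _ (Set.toFinite _)]
      simp only [H43.irrCongr_apply]
      rw [Finset.sum_congr rfl (g := fun _ => (ξ : (⊤ : Subgroup G) → ℂ) (e.symm g) /
          (ξ : (⊤ : Subgroup G) → ℂ) (e.symm 1)) fun h hh => ?_, Finset.sum_const, nsmul_eq_mul,
        ← mul_div_assoc]
      · congr 2
        rw [Nat.card_eq_fintype_card, Fintype.card_subtype]
        refine congrArg _ (Finset.card_equiv e.symm.toEquiv fun x => ?_)
        simp only [Finset.mem_filter, Finset.mem_univ, true_and, Set.Finite.mem_toFinset,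
          Set.mem_ofPred_eq, MulEquiv.toEquiv_eq_coe, EquivLike.coe_coe]
        rw [← he (e.symm x), e.apply_symm_apply]
      · simp only [Set.Finite.mem_toFinset, Set.mem_ofPred_eq] at hh
        obtain ⟨c, hc⟩ := isConj_iff.1 hh
        rw [map_one]
        congr 1
        refine (H26.irr_eq_of_isConj ξ (isConj_iff.2 ⟨e.symm c, ?_⟩)).symm
        rw [← map_inv, ← map_mul, ← map_mul, hc, ← he h, e.symm_apply_apply]
    exact H41.block_eq_of_mem_of_mem (H22.isPBlock_image e.symm hind.1) hind.2.1 ⟨ξ, hξ, rfl⟩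
      ((H41.mem_iff_of_sameBlock hind.2.1 hs).2 hχ)
  have hinv : ∀ ψ : Cfsg.IrrCharacter (⊤ : Subgroup G), irrCongr e (irrCongr e.symm ψ) = ψ :=
    fun ψ => Subtype.ext (funext fun x => by simp [H43.irrCongr_apply])
  have hinv' : ∀ ψ : Cfsg.IrrCharacter G, irrCongr e.symm (irrCongr e ψ) = ψ :=
    fun ψ => Subtype.ext (funext fun x => by simp [H43.irrCongr_apply])
  obtain ⟨B', hB'⟩ := exists_isInducedBlock (P := (⊥ : Subgroup G)) (H := (⊤ : Subgroup G)) hM
    IsPGroup.of_bot bot_le le_top (le_normalizer_bot ⊤) (H22.isPBlock_image e hb)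
  have hset : {γ : Set (Cfsg.IrrCharacter (⊤ : Subgroup G)) | Cfsg.IsInducedBlock M ⊤ γ b} =
      {irrCongr e '' b} := by
    have hB : B' = b := by
      rw [← hid _ _ hB', Set.image_image]
      simp [hinv']
    ext γ
    refine ⟨fun h => ?_, fun h => ?_⟩
    · rw [Set.mem_singleton_iff, ← hid γ b h, Set.image_image]
      simp [hinv]
    · rw [Set.mem_singleton_iff] at h
      subst h
      exact hB ▸ hB'
  rw [rankSum, hset, finsum_mem_singleton, blockRank_image]

/-- Transitivity: blocks of a local subgroup of `H` over the blocks of `H` inducing `b`. -/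
theorem sum_rankSum_subgroup (hM : Cfsg.IsPModular p M) (hb : Cfsg.IsPBlock M b) (H : Subgroup G)
    {x : H} (hx : ∃ k : ℕ, orderOf x = p ^ k) :
    ∑ᶠ β ∈ {β : Set (Cfsg.IrrCharacter H) | Cfsg.IsInducedBlock M H β b},
      rankSum p M (Subgroup.centralizer ({x} : Set H)) β =
      rankSum p M (H ⊓ Subgroup.centralizer ({(x : G)} : Set G)) b := by
  classical
  set L := H ⊓ Subgroup.centralizer ({(x : G)} : Set G)
  let e : Subgroup.centralizer ({x} : Set H) ≃* L :=
    { toFun := fun z => ⟨((z : H) : G), (z : H).2, Subgroup.mem_centralizer_singleton_iff.2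
        (congrArg Subtype.val (Subgroup.mem_centralizer_singleton_iff.1 z.2))⟩
      invFun := fun z => ⟨⟨(z : G), z.2.1⟩, Subgroup.mem_centralizer_singleton_iff.2
        (Subtype.ext (Subgroup.mem_centralizer_singleton_iff.1 z.2.2))⟩
      left_inv := fun _ => rfl
      right_inv := fun _ => rfl
      map_mul' := fun _ _ => rfl }
  have hinv : ∀ ψ : Cfsg.IrrCharacter (Subgroup.centralizer ({x} : Set H)),
      irrCongr e (irrCongr e.symm ψ) = ψ :=
    fun ψ => Subtype.ext (funext fun x => by simp [H43.irrCongr_apply])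
  have hinv' : ∀ ψ : Cfsg.IrrCharacter L, irrCongr e.symm (irrCongr e ψ) = ψ :=
    fun ψ => Subtype.ext (funext fun x => by simp [H43.irrCongr_apply])
  simp only [rankSum]
  rw [← finsum_mem_biUnion ?_ (Set.toFinite _) (fun _ _ => Set.toFinite _)]
  swap
  · intro β hβ β' hβ' hne
    exact Set.disjoint_left.2 fun γ h h' => hne (isInducedBlock_unique h h')
  refine (finsum_mem_eq_of_bijOn (fun γ => irrCongr e '' γ) ⟨?_, ?_, ?_⟩ ?_).symm
  · intro γ hγ
    simp only [Set.mem_iUnion, Set.mem_ofPred_eq, exists_prop]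
    obtain ⟨β, hβ⟩ := exists_isInducedBlock_centralizer hM hx (H22.isPBlock_image e hγ.1)
    refine ⟨β, ?_, hβ⟩
    obtain ⟨ξ, hξ⟩ := H41.IsPBlock.nonempty hγ.1
    obtain ⟨η, hη⟩ := H41.IsPBlock.nonempty hβ.2.1
    obtain ⟨χ, hχ⟩ := H41.IsPBlock.nonempty hb
    refine (isInducedBlock_iff hβ.2.1 hb hη hχ).2 fun z => ?_
    rw [← omegaBar_restrictZ_of_isInducedBlock hγ hξ hχ,
      ← omegaBar_restrictZ_of_isInducedBlock hβ ⟨ξ, hξ, rfl⟩ hη]
    exact omegaBar_restrictZ_restrictZ H L _ e (fun _ => rfl) ξ z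
  · intro γ _ γ' _ h
    have h' := congrArg (fun s => irrCongr e.symm '' s) h
    simpa [Set.image_image, hinv'] using h'
  · intro γ hγ
    simp only [Set.mem_iUnion, Set.mem_ofPred_eq, exists_prop] at hγ
    obtain ⟨β, hβ, hγβ⟩ := hγ
    refine ⟨irrCongr e.symm '' γ, ?_, by simp [Set.image_image, hinv]⟩
    obtain ⟨η, hη⟩ := H41.IsPBlock.nonempty hβ.1
    obtain ⟨χ, hχ⟩ := H41.IsPBlock.nonempty hb
    obtain ⟨ξ, hξ⟩ := H41.IsPBlock.nonempty hγβ.1
    refine (isInducedBlock_iff (H22.isPBlock_image e.symm hγβ.1) hb ⟨ξ, hξ, rfl⟩ hχ).2 fun z => ?_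
    rw [← omegaBar_restrictZ_restrictZ H L _ e (fun _ => rfl), hinv,
      omegaBar_restrictZ_of_isInducedBlock hγβ hξ hη,
      omegaBar_restrictZ_of_isInducedBlock hβ hη hχ]
  · intro γ _
    rw [blockRank_image]

/-- A class invariant sum over elements from a sum over representatives. -/
theorem mul_sum_reps_eq {H : Type u} [Group H] [Fintype H] [DecidableEq H] (q : H → Prop)
    [DecidablePred q] (hq : ∀ x y : H, IsConj x y → q x → q y) (X : Finset H)
    (hX : ∀ g : H, q g → ∃! x, x ∈ X ∧ IsConj g x) (hXq : ∀ x ∈ X, q x) (f : H → ℕ)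
    (hf : ∀ x y : H, IsConj x y → f x = f y) :
    Nat.card H * ∑ x ∈ X, f x =
      ∑ g ∈ Finset.univ.filter q, Nat.card (Subgroup.centralizer ({g} : Set H)) * f g := by
  classical
  choose! rep hrep hrepu using hX
  rw [Finset.mul_sum, ← Finset.sum_fiberwise_of_maps_to (g := rep)
    (fun g hg => (hrep g (Finset.mem_filter.1 hg).2).1)]
  refine Finset.sum_congr rfl fun x hx => ?_
  have hfib : (Finset.univ.filter q).filter (fun g => rep g = x) =
      Finset.univ.filter (fun g => IsConj g x) := by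
    ext g
    simp only [Finset.mem_filter, Finset.mem_univ, true_and]
    exact ⟨fun ⟨hg, e⟩ => e ▸ (hrep g hg).2,
      fun h => ⟨hq _ _ h.symm (hXq x hx),
        (hrepu g (hq _ _ h.symm (hXq x hx)) x ⟨hx, h⟩).symm⟩⟩
  rw [hfib, Finset.sum_congr rfl (g := fun _ =>
    Nat.card (Subgroup.centralizer ({x} : Set H)) * f x) fun g hg => ?_, Finset.sum_const,
    smul_eq_mul, ← mul_assoc]
  · congr 1
    rw [← H26.card_class_mul_card_centralizer x]
    congr 2
    ext g
    simp [ConjClasses.mk_eq_mk_iff_isConj]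
  · have hg := (Finset.mem_filter.1 hg).2
    rw [hf _ _ hg, H26.card_centralizer_eq_of_isConj hg]

open scoped Classical in
/-- Counting the members of a block of `H` over the nontrivial `p`-elements. -/
theorem card_mul_eq (hM : Cfsg.IsPModular p M) {H : Type u} [Group H] [Fintype H]
    {B : Set (Cfsg.IrrCharacter H)} (hB : Cfsg.IsPBlock M B) :
    Nat.card H * Nat.card B = Nat.card H * rankSum p M (Subgroup.centralizer ({1} : Set H)) B +
      ∑ g ∈ Finset.univ.filter (fun g : H => (∃ k : ℕ, orderOf g = p ^ k) ∧ g ≠ 1),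
        Nat.card (Subgroup.centralizer ({g} : Set H)) *
          rankSum p M (Subgroup.centralizer ({g} : Set H)) B := by
  set f : H → ℕ := fun g => rankSum p M (Subgroup.centralizer ({g} : Set H)) B
  let q : H → Prop := fun g => ∃ k : ℕ, orderOf g = p ^ k
  have hq : ∀ x y : H, IsConj x y → q x → q y := by
    intro x y h ⟨k, hk⟩
    obtain ⟨c, hc⟩ := isConj_iff.1 h
    exact ⟨k, by rw [← hc, ← MulAut.conj_apply, MulEquiv.orderOf_eq, hk]⟩
  let X : Finset H := (Finset.univ.filter q).image fun g => Quotient.out (ConjClasses.mk g)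
  have hout : ∀ g : H, IsConj g (Quotient.out (ConjClasses.mk g)) := fun g =>
    (ConjClasses.mk_eq_mk_iff_isConj.1 (Quotient.out_eq (ConjClasses.mk g))).symm
  have hXq : ∀ x ∈ X, q x := by
    intro x hx
    obtain ⟨g, hg, rfl⟩ := Finset.mem_image.1 hx
    exact hq _ _ (hout g) (Finset.mem_filter.1 hg).2
  have hX : ∀ g : H, q g → ∃! x, x ∈ X ∧ IsConj g x := by
    refine fun g hg => ⟨_, ⟨Finset.mem_image.2 ⟨g, Finset.mem_filter.2 ⟨Finset.mem_univ _, hg⟩,
      rfl⟩, hout g⟩, ?_⟩
    rintro y ⟨hy, hgy⟩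
    obtain ⟨g', -, rfl⟩ := Finset.mem_image.1 hy
    rw [ConjClasses.mk_eq_mk_iff_isConj.2 (hgy.trans (hout g').symm)]
  have hk : Nat.card B = ∑ x ∈ X, f x := H32.card_eq_sum_blockRank hM hB hXq hX
  have hrepl : ∀ y : H, q y → ∀ x ∈ X, IsConj y x → f y = f x := by
    intro y hy x hx hyx
    by_cases hyX : y ∈ X
    · exact congrArg f ((hX y hy).unique ⟨hyX, IsConj.refl y⟩ ⟨hx, hyx⟩)
    have h' := H32.card_eq_sum_blockRank hM hB (X := insert y (X.erase x)) ?_ ?_
    · change Nat.card B = ∑ x ∈ insert y (X.erase x), f x at h'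
      rw [hk, ← Finset.add_sum_erase _ _ hx, Finset.sum_insert (fun h => hyX
        (Finset.mem_of_mem_erase h))] at h'
      exact (Nat.add_right_cancel h').symm
    · intro z hz
      rcases Finset.mem_insert.1 hz with rfl | hz
      exacts [hy, hXq _ (Finset.mem_of_mem_erase hz)]
    · intro g hg
      obtain ⟨z, ⟨hz, hgz⟩, huniq⟩ := hX g hg
      by_cases hzx : z = x
      · subst hzx
        refine ⟨y, ⟨Finset.mem_insert_self _ _, hgz.trans hyx.symm⟩, fun w hw => ?_⟩
        rcases Finset.mem_insert.1 hw.1 with rfl | hw'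
        · rfl
        · exact absurd (huniq w ⟨Finset.mem_of_mem_erase hw', hw.2⟩) (Finset.ne_of_mem_erase hw')
      · refine ⟨z, ⟨Finset.mem_insert_of_mem (Finset.mem_erase.2 ⟨hzx, hz⟩), hgz⟩, fun w hw => ?_⟩
        rcases Finset.mem_insert.1 hw.1 with rfl | hw'
        · exact absurd ((hX w hy).unique ⟨hx, hyx⟩
            ⟨hz, hw.2.symm.trans hgz⟩).symm hzx
        · exact huniq w ⟨Finset.mem_of_mem_erase hw', hw.2⟩
  have hf : ∀ x y : H, IsConj x y → q x → f x = f y := by
    intro x y hxy hx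
    obtain ⟨z, ⟨hz, hxz⟩, -⟩ := hX x hx
    rw [hrepl x hx z hz hxz, hrepl y (hq _ _ hxy hx) z hz (hxy.symm.trans hxz)]
  let f' : H → ℕ := fun g => if q g then f g else 0
  have hf' : ∀ x y : H, IsConj x y → f' x = f' y := by
    intro x y hxy
    by_cases hx : q x
    · simp only [f', if_pos hx, if_pos (hq _ _ hxy hx), hf x y hxy hx]
    · simp only [f', if_neg hx, if_neg (fun h => hx (hq _ _ hxy.symm h))]
  have hsum := mul_sum_reps_eq q hq X hX hXq f' hf'
  rw [Finset.sum_congr rfl (fun x hx => if_pos (hXq x hx)), ← hk] at hsum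
  rw [hsum, ← Finset.add_sum_erase (Finset.univ.filter q) _
    (Finset.mem_filter.2 ⟨Finset.mem_univ (1 : H), 0, by simp⟩)]
  refine congrArg₂ (· + ·) ?_ (Finset.sum_congr ?_ fun g hg => ?_)
  · have h1 : q (1 : H) := ⟨0, by simp⟩
    simp only [f', if_pos h1]
    rw [show Subgroup.centralizer ({1} : Set H) = ⊤ from Subgroup.ext fun z => by
      simp [Subgroup.mem_centralizer_singleton_iff]]
    rw [Subgroup.card_top]
    simp only [f]
    rw [show Subgroup.centralizer ({1} : Set H) = ⊤ from Subgroup.ext fun z => by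
      simp [Subgroup.mem_centralizer_singleton_iff]]
  · ext g
    simp [q, and_comm]
  · have hqg : q g := (Finset.mem_filter.1 hg).2.1
    simp only [f', if_pos hqg, f]

open scoped Classical in
/-- The weight of an element at a subgroup. -/
noncomputable def weight (p : ℕ) (M : Ideal Cfsg.AlgInt) (b : Set (Cfsg.IrrCharacter G))
    (K : Subgroup G) : ℤ :=
  (Nat.card K : ℤ) * (rankSum p M K b : ℤ)

open scoped Classical in
/-- The excess of a local subgroup, spread over its nontrivial `p`-elements. -/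
theorem excess_eq [Fintype G] (hM : Cfsg.IsPModular p M) (hb : Cfsg.IsPBlock M b) (H : Subgroup G) :
    (Nat.card H : ℤ) * ((Nat.card (indUnion M H b) : ℤ) -
      (Cfsg.blockRank p (indUnion M H b) : ℤ)) =
      ∑ g ∈ Finset.univ.filter (fun g : G => ((∃ k : ℕ, orderOf g = p ^ k) ∧ g ≠ 1) ∧ g ∈ H),
        weight p M b (H ⊓ Subgroup.centralizer ({g} : Set G)) := by
  have := Fintype.ofFinite H
  have hnat : Nat.card H * Nat.card (indUnion M H b) =
      Nat.card H * Cfsg.blockRank p (indUnion M H b) +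
        ∑ g ∈ Finset.univ.filter (fun g : H => (∃ k : ℕ, orderOf g = p ^ k) ∧ g ≠ 1),
          Nat.card (Subgroup.centralizer ({g} : Set H)) *
            rankSum p M (H ⊓ Subgroup.centralizer ({(g : G)} : Set G)) b := by
    rw [card_indUnion, blockRank_indUnion hM,
      finsum_mem_eq_finite_toFinset_sum _ (Set.toFinite _), Finset.mul_sum]
    rw [Finset.sum_congr rfl (fun β hβ =>
      card_mul_eq hM (B := β) ((Set.Finite.mem_toFinset _).1 hβ).1), Finset.sum_add_distrib]
    refine congrArg₂ (· + ·) ?_ ?_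
    · rw [← Finset.mul_sum, ← finsum_mem_eq_finite_toFinset_sum _ (Set.toFinite _),
        sum_rankSum_subgroup hM hb H (x := 1) ⟨0, by simp⟩]
      congr 2
      ext z
      simp [Subgroup.mem_centralizer_singleton_iff]
    · rw [Finset.sum_comm]
      refine Finset.sum_congr (by ext g; simp) fun g hg => ?_
      rw [← Finset.mul_sum, ← finsum_mem_eq_finite_toFinset_sum _ (Set.toFinite _),
        sum_rankSum_subgroup hM hb H (Finset.mem_filter.1 hg).2.1]
  rw [mul_sub, ← Nat.cast_mul, ← Nat.cast_mul, hnat, Nat.cast_add, add_sub_cancel_left,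
    Nat.cast_sum]
  refine Finset.sum_bij (fun g _ => (g : G)) ?_ ?_ ?_ ?_
  · intro g hg
    obtain ⟨⟨k, hk⟩, hne⟩ := (Finset.mem_filter.1 hg).2
    exact Finset.mem_filter.2 ⟨Finset.mem_univ _,
      ⟨⟨k, by rw [Subgroup.orderOf_coe, hk]⟩, fun h => hne (Subtype.ext h)⟩, g.2⟩
  · exact fun a _ b _ h => Subtype.ext h
  · intro g hg
    obtain ⟨⟨⟨k, hk⟩, hne⟩, hgH⟩ := (Finset.mem_filter.1 hg).2
    exact ⟨⟨g, hgH⟩, Finset.mem_filter.2 ⟨Finset.mem_univ _, ⟨k, by rw [← hk]; exact
      (Subgroup.orderOf_coe (⟨g, hgH⟩ : H)).symm⟩, fun h => hne (congrArg Subtype.val h)⟩, rfl⟩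
  · intro g _
    rw [weight, Nat.cast_mul, Nat.card_congr (?_ : Subgroup.centralizer ({g} : Set H) ≃
      (H ⊓ Subgroup.centralizer ({(g : G)} : Set G) : Subgroup G))]
    exact
      { toFun := fun z => ⟨((z : H) : G), (z : H).2, Subgroup.mem_centralizer_singleton_iff.2
          (congrArg Subtype.val (Subgroup.mem_centralizer_singleton_iff.1 z.2))⟩
        invFun := fun z => ⟨⟨(z : G), z.2.1⟩, Subgroup.mem_centralizer_singleton_iff.2
          (Subtype.ext (Subgroup.mem_centralizer_singleton_iff.1 z.2.2))⟩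
        left_inv := fun _ => rfl
        right_inv := fun _ => rfl }

open scoped Classical in
/-- The excess of the block, spread over the nontrivial `p`-elements. -/
theorem excess_top [Fintype G] (hM : Cfsg.IsPModular p M) (hb : Cfsg.IsPBlock M b) :
    (Nat.card G : ℤ) * ((Nat.card b : ℤ) - (Cfsg.blockRank p b : ℤ)) =
      ∑ g ∈ Finset.univ.filter (fun g : G => (∃ k : ℕ, orderOf g = p ^ k) ∧ g ≠ 1),
        weight p M b (Subgroup.centralizer ({g} : Set G)) := by
  have h := card_mul_eq hM hb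
  rw [rankSum_top hM hb _ (Subgroup.ext fun z => by
    simp [Subgroup.mem_centralizer_singleton_iff])] at h
  rw [mul_sub, ← Nat.cast_mul, ← Nat.cast_mul, h, Nat.cast_add, add_sub_cancel_left, Nat.cast_sum]
  exact Finset.sum_congr (by congr) fun g _ => by rw [weight, Nat.cast_mul]

end Cfsg.Agent.H40.ChainCounts
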