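import Mathlib

/-!
# The cancellation of normal chains fixed by a `p`-element
-/

set_option autoImplicit false
set_option linter.unusedSectionVars false
set_option maxHeartbeats 400000

namespace Cfsg.Agent.H40.ChainPairing

universe u

variable {G : Type u} [Group G] [Finite G] {p : ℕ} [Fact p.Prime]

/-- A chain of nontrivial `p`-subgroups, all normal in the largest. -/
def IsNChain (p : ℕ) (s : Finset (Subgroup G)) : Prop :=
  s.Nonempty ∧ (∀ Q ∈ s, ∀ R ∈ s, Q ≤ R ∨ R ≤ Q) ∧ (∀ Q ∈ s, Q ≠ ⊥ ∧ IsPGroup p Q) ∧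
    ∃ T ∈ s, ∀ Q ∈ s, Q ≤ T ∧ T ≤ Subgroup.normalizer ((Q : Subgroup G) : Set G)

/-- The stabiliser of a chain. -/
def stab (s : Finset (Subgroup G)) : Subgroup G :=
  ⨅ Q ∈ s, Subgroup.normalizer ((Q : Subgroup G) : Set G)

theorem mem_stab {s : Finset (Subgroup G)} {x : G} :
    x ∈ stab s ↔ ∀ Q ∈ s, x ∈ Subgroup.normalizer ((Q : Subgroup G) : Set G) := by
  simp [stab, Subgroup.mem_iInf]

/-- The top member. -/
def top (s : Finset (Subgroup G)) : Subgroup G := s.sup id

theorem top_eq {s : Finset (Subgroup G)} {T : Subgroup G} (hT : T ∈ s) (h : ∀ Q ∈ s, Q ≤ T) :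
    top s = T :=
  le_antisymm (Finset.sup_le h) (Finset.le_sup (f := id) hT)

/-- The generators of the members avoiding `u`. -/
def lowSet (u : G) (s : Finset (Subgroup G)) : Set G := {y | ∃ Q ∈ s, u ∉ Q ∧ y ∈ Q}

/-- The conjugates of `u` under the top member. -/
def conjs (u : G) (T : Subgroup G) : Set G := {y | ∃ t ∈ T, t * u * t⁻¹ = y}

/-- The point toggled in a chain. -/
def pivot (u : G) (s : Finset (Subgroup G)) : Subgroup G :=
  Subgroup.closure (lowSet u s ∪ conjs u (top s))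

theorem mem_normalizer_of_mapsTo {R : Subgroup G} {x : G} (h : ∀ r ∈ R, x * r * x⁻¹ ∈ R) :
    x ∈ Subgroup.normalizer (R : Set G) := by
  refine Subgroup.mem_normalizer_iff.2 fun r => ⟨h r, fun hr => ?_⟩
  obtain ⟨⟨s, hs⟩, he⟩ := Finite.surjective_of_injective
    (f := fun a : R => (⟨x * a * x⁻¹, h a a.2⟩ : R))
    (fun a b e => Subtype.ext (by simpa using congrArg Subtype.val e)) ⟨_, hr⟩
  have he' : x * s * x⁻¹ = x * r * x⁻¹ := congrArg Subtype.val he
  have : s = r := by simpa using he'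
  exact this ▸ hs

/-- A `p`-group generated modulo a normal subgroup by the conjugates of one element is generated
modulo it by that element. -/
theorem le_sup_zpowers {T N : Subgroup G} (hT : IsPGroup p T) {u : G} (hu : u ∈ T) (hNT : N ≤ T)
    (hgen : T ≤ N ⊔ Subgroup.closure (conjs u T)) : T ≤ N ⊔ Subgroup.zpowers u := by
  set K := (N ⊔ Subgroup.zpowers u).subgroupOf T
  rcases eq_top_or_exists_le_coatom K with h | ⟨W, hW, hKW⟩
  · exact Subgroup.subgroupOf_eq_top.1 h
  exfalso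
  have : Group.IsNilpotent T := hT.isNilpotent
  have hn : W.Normal :=
    Subgroup.NormalizerCondition.normal_of_coatom W Group.normalizerCondition_of_isNilpotent hW
  refine hW.1 (eq_top_iff.2 ?_)
  have hle : T ≤ W.map T.subtype := by
    refine hgen.trans (sup_le (fun n hn' => ?_) ((Subgroup.closure_le _).2 ?_))
    · exact ⟨⟨n, hNT hn'⟩, hKW (Subgroup.mem_subgroupOf.2 (Subgroup.mem_sup_left hn')), rfl⟩
    · rintro _ ⟨t, ht, rfl⟩
      refine ⟨_, hn.conj_mem ⟨u, hu⟩ (hKW (Subgroup.mem_subgroupOf.2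
        (Subgroup.mem_sup_right (Subgroup.mem_zpowers u)))) ⟨t, ht⟩, rfl⟩
  rintro ⟨x, hx⟩ -
  obtain ⟨w, hw, e⟩ := hle hx
  have : w = ⟨x, hx⟩ := Subtype.ext e
  exact this ▸ hw

section Chain

variable {s : Finset (Subgroup G)} (hs : IsNChain p s) {u : G}

include hs

theorem top_mem : top s ∈ s := by
  obtain ⟨T, hT, h⟩ := hs.2.2.2
  rwa [top_eq hT fun Q hQ => (h Q hQ).1]

theorem le_top' {Q : Subgroup G} (hQ : Q ∈ s) : Q ≤ top s := Finset.le_sup (f := id) hQ

theorem top_le_normalizer {Q : Subgroup G} (hQ : Q ∈ s) :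
    top s ≤ Subgroup.normalizer (Q : Set G) := by
  obtain ⟨T, hT, h⟩ := hs.2.2.2
  rw [top_eq hT fun Q hQ => (h Q hQ).1]
  exact (h Q hQ).2

theorem mem_pivot : u ∈ pivot u s :=
  Subgroup.subset_closure (Or.inr ⟨1, one_mem _, by simp⟩)

theorem le_pivot {Q : Subgroup G} (hQ : Q ∈ s) (hu : u ∉ Q) : Q ≤ pivot u s :=
  fun _ hy => Subgroup.subset_closure (Or.inl ⟨Q, hQ, hu, hy⟩)

theorem pivot_le_of_mem {Q : Subgroup G} (hQ : Q ∈ s) (hu : u ∈ Q) : pivot u s ≤ Q := by
  refine (Subgroup.closure_le _).2 ?_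
  rintro y (⟨Q', hQ', hu', hy⟩ | ⟨t, ht, rfl⟩)
  · rcases hs.2.1 Q' hQ' Q hQ with h | h
    · exact h hy
    · exact absurd (h hu) hu'
  · exact (Subgroup.mem_normalizer_iff.1 (top_le_normalizer hs hQ ht) u).1 hu

theorem pivot_le_sup : pivot u s ≤ top s ⊔ Subgroup.zpowers u := by
  refine (Subgroup.closure_le _).2 ?_
  rintro y (⟨Q', hQ', -, hy⟩ | ⟨t, ht, rfl⟩)
  · exact Subgroup.mem_sup_left (le_top' hs hQ' hy)
  · exact mul_mem (mul_mem (Subgroup.mem_sup_left ht) (Subgroup.mem_sup_right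
      (Subgroup.mem_zpowers u))) (inv_mem (Subgroup.mem_sup_left ht))

theorem mem_normalizer_pivot {x : G}
    (hx : ∀ Q ∈ s, x ∈ Subgroup.normalizer ((Q : Subgroup G) : Set G))
    (h : x ∈ top s ∨ x * u = u * x) : x ∈ Subgroup.normalizer (pivot u s : Set G) := by
  refine mem_normalizer_of_mapsTo fun r hr => ?_
  have hle : pivot u s ≤ (pivot u s).comap (MulAut.conj x).toMonoidHom := by
    refine (Subgroup.closure_le _).2 ?_
    rintro y (⟨Q', hQ', hu', hy⟩ | ⟨t, ht, rfl⟩)
    · exact le_pivot hs hQ' hu' ((Subgroup.mem_normalizer_iff.1 (hx Q' hQ') y).1 hy)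
    · refine Subgroup.subset_closure (Or.inr ?_)
      rcases h with h | h
      · exact ⟨x * t, mul_mem h ht, by simp [mul_assoc]⟩
      · refine ⟨x * t * x⁻¹, (Subgroup.mem_normalizer_iff.1 (hx _ (top_mem hs)) t).1 ht, ?_⟩
        calc x * t * x⁻¹ * u * (x * t * x⁻¹)⁻¹ = x * t * (x⁻¹ * (u * x)) * t⁻¹ * x⁻¹ := by group
          _ = x * t * u * t⁻¹ * x⁻¹ := by rw [← h]; group
          _ = _ := by simp [mul_assoc]
  exact hle hr

variable (hstab : u ∈ stab s)

include hstab

theorem top_le_normalizer_pivot : top s ≤ Subgroup.normalizer (pivot u s : Set G) :=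
  fun t ht => mem_normalizer_pivot hs (fun Q hQ => top_le_normalizer hs hQ ht) (Or.inl ht)

theorem sup_le_normalizer {Q : Subgroup G} (hQ : Q ∈ s) :
    top s ⊔ Subgroup.zpowers u ≤ Subgroup.normalizer (Q : Set G) :=
  sup_le (top_le_normalizer hs hQ) ((Subgroup.zpowers_le).2 (mem_stab.1 hstab Q hQ))

variable (hup : IsPGroup p (Subgroup.zpowers u))

include hup

theorem isPGroup_pivot : IsPGroup p (pivot u s) := by
  refine IsPGroup.to_le ?_ (pivot_le_sup hs)
  rw [sup_comm]
  exact hup.to_sup_of_normal_right' (hs.2.2.1 _ (top_mem hs)).2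
    ((Subgroup.zpowers_le).2 (mem_stab.1 hstab _ (top_mem hs)))

theorem pivot_eq_of_top_notMem (hu : u ∉ top s) :
    pivot u s = top s ⊔ Subgroup.zpowers u :=
  le_antisymm (pivot_le_sup hs) (sup_le (le_pivot hs (top_mem hs) hu)
    ((Subgroup.zpowers_le).2 (mem_pivot hs)))

variable (hu1 : u ≠ 1)

include hu1

theorem pivot_ne_bot : pivot u s ≠ ⊥ :=
  fun h => hu1 (Subgroup.mem_bot.1 (h ▸ mem_pivot hs))

open scoped Classical in
/-- Inserting the pivot. -/
theorem insert_spec (hR : pivot u s ∉ s) :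
    IsNChain p (insert (pivot u s) s) ∧ u ∈ stab (insert (pivot u s) s) ∧
      pivot u (insert (pivot u s) s) = pivot u s := by
  set R := pivot u s with hRdef
  have hcomp : ∀ Q ∈ s, Q ≤ R ∨ R ≤ Q := fun Q hQ => by
    by_cases h : u ∈ Q
    exacts [Or.inr (pivot_le_of_mem hs hQ h), Or.inl (le_pivot hs hQ h)]
  have hRp : IsPGroup p R := isPGroup_pivot hs hstab hup
  obtain ⟨W, hW, hWQ, hWu⟩ : ∃ W ∈ insert R s, (∀ Q ∈ insert R s, Q ≤ W ∧
      W ≤ Subgroup.normalizer ((Q : Subgroup G) : Set G)) ∧ (W = top s ∨ (u ∉ top s ∧ W = R)) := by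
    by_cases hu : u ∈ top s
    · refine ⟨top s, Finset.mem_insert_of_mem (top_mem hs), fun Q hQ => ?_, Or.inl rfl⟩
      rcases Finset.mem_insert.1 hQ with rfl | hQ
      · exact ⟨pivot_le_of_mem hs (top_mem hs) hu, top_le_normalizer_pivot hs hstab⟩
      · exact ⟨le_top' hs hQ, top_le_normalizer hs hQ⟩
    · refine ⟨R, Finset.mem_insert_self _ _, fun Q hQ => ?_, Or.inr ⟨hu, rfl⟩⟩
      rcases Finset.mem_insert.1 hQ with rfl | hQ
      · exact ⟨le_rfl, Subgroup.le_normalizer⟩
      · exact ⟨(le_top' hs hQ).trans (le_pivot hs (top_mem hs) hu),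
          (pivot_le_sup hs).trans (sup_le_normalizer hs hstab hQ)⟩
  have htop : top (insert R s) = W := top_eq hW fun Q hQ => (hWQ Q hQ).1
  refine ⟨⟨Finset.insert_nonempty _ _, ?_, ?_, W, hW, hWQ⟩, ?_, ?_⟩
  · intro Q hQ Q' hQ'
    rcases Finset.mem_insert.1 hQ with rfl | hQ <;> rcases Finset.mem_insert.1 hQ' with rfl | hQ'
    exacts [Or.inl le_rfl, (hcomp Q' hQ').symm, hcomp Q hQ, hs.2.1 Q hQ Q' hQ']
  · intro Q hQ
    rcases Finset.mem_insert.1 hQ with rfl | hQ
    exacts [⟨pivot_ne_bot hs hstab hup hu1, hRp⟩, hs.2.2.1 Q hQ]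
  · refine mem_stab.2 fun Q hQ => ?_
    rcases Finset.mem_insert.1 hQ with rfl | hQ
    exacts [mem_normalizer_pivot hs (mem_stab.1 hstab) (Or.inr rfl), mem_stab.1 hstab Q hQ]
  · have hlow : lowSet u (insert R s) = lowSet u s := by
      ext y
      refine ⟨?_, fun ⟨Q, hQ, h⟩ => ⟨Q, Finset.mem_insert_of_mem hQ, h⟩⟩
      rintro ⟨Q, hQ, hu, hy⟩
      rcases Finset.mem_insert.1 hQ with rfl | hQ
      exacts [absurd (mem_pivot hs) hu, ⟨Q, hQ, hu, hy⟩]
    rcases hWu with hWt | ⟨hu, hWR⟩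
    · show Subgroup.closure (lowSet u (insert R s) ∪ conjs u (top (insert R s))) = _
      rw [hlow, htop, hWt]
      rfl
    · refine le_antisymm ((Subgroup.closure_le _).2 ?_) (Subgroup.closure_mono ?_)
      · rw [hlow, htop, hWR]
        rintro y (hy | ⟨t, ht, rfl⟩)
        · exact Subgroup.subset_closure (Or.inl hy)
        · exact mul_mem (mul_mem ht (mem_pivot hs)) (inv_mem ht)
      · rw [hlow, htop, hWR]
        rintro y (hy | ⟨t, ht, rfl⟩)
        · exact Or.inl hy
        · exact Or.inr ⟨t, le_pivot hs (top_mem hs) hu ht, rfl⟩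

open scoped Classical in
/-- Deleting the pivot, away from the chain `{⟨u⟩}`. -/
theorem erase_spec (hR : pivot u s ∈ s) (hne : s ≠ {Subgroup.zpowers u}) :
    IsNChain p (s.erase (pivot u s)) ∧ u ∈ stab (s.erase (pivot u s)) ∧
      pivot u (s.erase (pivot u s)) = pivot u s := by
  set R := pivot u s with hRdef
  have hlow : ∀ Q ∈ s, u ∉ Q → Q ∈ s.erase R := fun Q hQ hu =>
    Finset.mem_erase.2 ⟨fun e => hu (e ▸ mem_pivot hs), hQ⟩
  have hlowSet : lowSet u (s.erase R) = lowSet u s := by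
    ext y
    exact ⟨fun ⟨Q, hQ, h⟩ => ⟨Q, Finset.mem_of_mem_erase hQ, h⟩,
      fun ⟨Q, hQ, hu, hy⟩ => ⟨Q, hlow Q hQ hu, hu, hy⟩⟩
  have hstab' : u ∈ stab (s.erase R) :=
    mem_stab.2 fun Q hQ => mem_stab.1 hstab Q (Finset.mem_of_mem_erase hQ)
  have hne' : (s.erase R).Nonempty := by
    rw [Finset.nonempty_iff_ne_empty, ne_eq, Finset.erase_eq_empty_iff]
    rintro (h | h)
    · exact hs.1.ne_empty h
    refine hne ?_
    rw [h]
    have htop : top s = R := top_eq hR fun Q hQ => by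
      rw [h, Finset.mem_singleton] at hQ
      exact hQ.le
    have hgen : R ≤ ⊥ ⊔ Subgroup.closure (conjs u R) := by
      rw [bot_sup_eq]
      conv_lhs => rw [hRdef, pivot, htop]
      refine (Subgroup.closure_le _).2 ?_
      rintro y (⟨Q, hQ, hu, -⟩ | hy)
      · rw [h, Finset.mem_singleton] at hQ
        exact absurd (hQ ▸ mem_pivot hs) hu
      · exact Subgroup.subset_closure hy
    have := le_sup_zpowers (hs.2.2.1 R hR).2 (mem_pivot hs) bot_le hgen
    rw [bot_sup_eq] at this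
    rw [le_antisymm this ((Subgroup.zpowers_le).2 (mem_pivot hs))]
  by_cases hRT : R = top s
  · -- the pivot is the top
    have hmiss : ∀ Q ∈ s.erase R, u ∉ Q := fun Q hQ hu => (Finset.mem_erase.1 hQ).1
      (le_antisymm (hRT ▸ le_top' hs (Finset.mem_of_mem_erase hQ))
        (pivot_le_of_mem hs (Finset.mem_of_mem_erase hQ) hu))
    obtain ⟨T', hT', hmax⟩ := Finset.exists_max_image (s.erase R)
      (fun Q : Subgroup G => Nat.card Q) hne'
    have hle : ∀ Q ∈ s.erase R, Q ≤ T' := fun Q hQ => by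
      rcases hs.2.1 Q (Finset.mem_of_mem_erase hQ) T' (Finset.mem_of_mem_erase hT') with h | h
      exacts [h, (Subgroup.eq_of_le_of_card_ge h (hmax Q hQ)).ge]
    have hT'top : T' ≤ top s := le_top' hs (Finset.mem_of_mem_erase hT')
    have hchain : IsNChain p (s.erase R) := ⟨hne', fun Q hQ Q' hQ' => hs.2.1 Q
      (Finset.mem_of_mem_erase hQ) Q' (Finset.mem_of_mem_erase hQ'),
      fun Q hQ => hs.2.2.1 Q (Finset.mem_of_mem_erase hQ), T', hT', fun Q hQ =>
        ⟨hle Q hQ, hT'top.trans (top_le_normalizer hs (Finset.mem_of_mem_erase hQ))⟩⟩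
    refine ⟨hchain, hstab', ?_⟩
    have htop' : top (s.erase R) = T' := top_eq hT' hle
    rw [pivot_eq_of_top_notMem hchain hstab' hup (htop' ▸ hmiss T' hT'), htop']
    refine le_antisymm (sup_le (hRT ▸ hT'top) ((Subgroup.zpowers_le).2 (mem_pivot hs))) ?_
    refine le_sup_zpowers (hs.2.2.1 R hR).2 (mem_pivot hs) (hRT ▸ hT'top) ?_
    conv_lhs => rw [hRdef, pivot]
    refine (Subgroup.closure_le _).2 ?_
    rintro y (⟨Q, hQ, hu, hy⟩ | hy)
    · exact Subgroup.mem_sup_left (hle Q (hlow Q hQ hu) hy)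
    · exact Subgroup.mem_sup_right (Subgroup.subset_closure (by rwa [← hRT] at hy))
  · have hmem : top s ∈ s.erase R := Finset.mem_erase.2 ⟨Ne.symm hRT, top_mem hs⟩
    have htop' : top (s.erase R) = top s :=
      top_eq hmem fun Q hQ => le_top' hs (Finset.mem_of_mem_erase hQ)
    refine ⟨⟨hne', fun Q hQ Q' hQ' => hs.2.1 Q (Finset.mem_of_mem_erase hQ) Q'
      (Finset.mem_of_mem_erase hQ'), fun Q hQ => hs.2.2.1 Q (Finset.mem_of_mem_erase hQ),
      top s, hmem, fun Q hQ => ⟨le_top' hs (Finset.mem_of_mem_erase hQ),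
        top_le_normalizer hs (Finset.mem_of_mem_erase hQ)⟩⟩, hstab', ?_⟩
    show Subgroup.closure (lowSet u (s.erase R) ∪ conjs u (top (s.erase R))) = _
    rw [hlowSet, htop']
    rfl

end Chain

open scoped Classical in
/-- Toggling the pivot. -/
noncomputable def flip (u : G) (s : Finset (Subgroup G)) : Finset (Subgroup G) :=
  if pivot u s ∈ s then s.erase (pivot u s) else insert (pivot u s) s

theorem pivot_singleton (u : G) :
    pivot u ({Subgroup.zpowers u} : Finset (Subgroup G)) = Subgroup.zpowers u := by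
  refine le_antisymm ((Subgroup.closure_le _).2 ?_) ((Subgroup.zpowers_le).2
    (Subgroup.subset_closure (Or.inr ⟨1, one_mem _, by simp⟩)))
  rintro y (⟨Q, hQ, hu, -⟩ | ⟨t, ht, rfl⟩)
  · exact absurd (Finset.mem_singleton.1 hQ ▸ Subgroup.mem_zpowers u) hu
  · simp only [top, Finset.sup_singleton, id_eq] at ht
    exact mul_mem (mul_mem ht (Subgroup.mem_zpowers u)) (inv_mem ht)

open scoped Classical in
/-- Signed sums over the chains fixed by a nontrivial `p`-element collapse to one chain. -/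
theorem sum_signed_eq {A : Type*} [AddCommGroup A] {u : G} (hu1 : u ≠ 1)
    (hup : IsPGroup p (Subgroup.zpowers u)) (S : Finset (Finset (Subgroup G)))
    (hS : ∀ s, s ∈ S ↔ IsNChain p s ∧ u ∈ stab s) (F : Subgroup G → A) :
    ∑ s ∈ S, ((-1 : ℤ) ^ (s.card - 1)) • F (stab s ⊓ Subgroup.centralizer ({u} : Set G)) =
      F (Subgroup.centralizer ({u} : Set G)) := by
  set C := Subgroup.centralizer ({u} : Set G) with hC
  have hz1 : IsNChain p ({Subgroup.zpowers u} : Finset (Subgroup G)) := by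
    refine ⟨Finset.singleton_nonempty _, ?_, ?_, _, Finset.mem_singleton_self _, ?_⟩
    · intro Q hQ R hR; rw [Finset.mem_singleton] at hQ hR; exact Or.inl (hQ ▸ hR ▸ le_rfl)
    · intro Q hQ; rw [Finset.mem_singleton] at hQ; subst hQ
      exact ⟨by simpa using hu1, hup⟩
    · intro Q hQ; rw [Finset.mem_singleton] at hQ; subst hQ
      exact ⟨le_rfl, Subgroup.le_normalizer⟩
  have hz2 : u ∈ stab ({Subgroup.zpowers u} : Finset (Subgroup G)) :=
    mem_stab.2 fun Q hQ => by
      rw [Finset.mem_singleton] at hQ; subst hQ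
      exact Subgroup.le_normalizer (Subgroup.mem_zpowers u)
  have hz : {Subgroup.zpowers u} ∈ S := (hS _).2 ⟨hz1, hz2⟩
  have hCle : C ≤ stab ({Subgroup.zpowers u} : Finset (Subgroup G)) := fun c hc => mem_stab.2
    fun Q hQ => by
      rw [Finset.mem_singleton] at hQ; subst hQ
      refine mem_normalizer_of_mapsTo fun r hr => ?_
      obtain ⟨n, rfl⟩ := hr
      have h : Commute c u := Subgroup.mem_centralizer_singleton_iff.1 hc
      rw [(h.zpow_right n).eq, mul_inv_cancel_right]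
      exact Subgroup.zpow_mem _ (Subgroup.mem_zpowers u) n
  rw [← Finset.add_sum_erase S _ hz, Finset.card_singleton, inf_eq_right.2 hCle]
  rw [Nat.sub_self, pow_zero, one_smul]
  suffices h : ∑ s ∈ S.erase {Subgroup.zpowers u},
      ((-1 : ℤ) ^ (s.card - 1)) • F (stab s ⊓ C) = 0 by rw [h, add_zero]
  have key : ∀ s ∈ S.erase {Subgroup.zpowers u},
      IsNChain p (flip u s) ∧ u ∈ stab (flip u s) ∧ flip u s ≠ {Subgroup.zpowers u} ∧
        flip u (flip u s) = s ∧ flip u s ≠ s ∧
        ((-1 : ℤ) ^ ((flip u s).card - 1)) • F (stab (flip u s) ⊓ C) =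
          -(((-1 : ℤ) ^ (s.card - 1)) • F (stab s ⊓ C)) := by
    intro s hs
    obtain ⟨hne, hsS⟩ := Finset.mem_erase.1 hs
    obtain ⟨hch, hst⟩ := (hS s).1 hsS
    have hpos := hch.1.card_pos
    by_cases hR : pivot u s ∈ s
    · obtain ⟨h1, h2, h3⟩ := erase_spec hch hst hup hu1 hR hne
      have hfl : flip u s = s.erase (pivot u s) := if_pos hR
      have hcard : (s.erase (pivot u s)).card + 1 = s.card := Finset.card_erase_add_one hR
      have hpos' := h1.1.card_pos
      have hstabeq : stab (s.erase (pivot u s)) ⊓ C = stab s ⊓ C := by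
        refine le_antisymm ?_ (inf_le_inf_right _ fun x hx => mem_stab.2 fun Q hQ =>
          mem_stab.1 hx Q (Finset.mem_of_mem_erase hQ))
        rintro x ⟨hx, hxC⟩
        refine ⟨mem_stab.2 fun Q hQ => ?_, hxC⟩
        by_cases hQR : Q = pivot u s
        · rw [hQR, ← h3]
          exact mem_normalizer_pivot h1 (mem_stab.1 hx)
            (Or.inr (Subgroup.mem_centralizer_singleton_iff.1 hxC))
        · exact mem_stab.1 hx Q (Finset.mem_erase.2 ⟨hQR, hQ⟩)
      rw [hfl]
      refine ⟨h1, h2, fun e => ?_, ?_, fun e => ?_, ?_⟩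
      · rw [e, pivot_singleton] at h3
        have : Subgroup.zpowers u ∈ s.erase (pivot u s) := by rw [e]; exact Finset.mem_singleton_self _
        exact (Finset.mem_erase.1 this).1 h3
      · have hn : pivot u (s.erase (pivot u s)) ∉ s.erase (pivot u s) := by
          rw [h3]; exact Finset.notMem_erase _ _
        rw [flip, if_neg hn, h3, Finset.insert_erase hR]
      · exact absurd hR (Finset.erase_eq_self.1 e)
      · rw [hstabeq, ← hcard, show (s.erase (pivot u s)).card + 1 - 1 =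
          (s.erase (pivot u s)).card - 1 + 1 by omega, pow_succ, mul_neg_one, neg_smul, neg_neg]
    · obtain ⟨h1, h2, h3⟩ := insert_spec hch hst hup hu1 hR
      have hfl : flip u s = insert (pivot u s) s := if_neg hR
      have hcard : (insert (pivot u s) s).card = s.card + 1 := Finset.card_insert_of_notMem hR
      have hstabeq : stab (insert (pivot u s) s) ⊓ C = stab s ⊓ C := by
        refine le_antisymm (inf_le_inf_right _ fun x hx => mem_stab.2 fun Q hQ =>
          mem_stab.1 hx Q (Finset.mem_insert_of_mem hQ)) ?_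
        rintro x ⟨hx, hxC⟩
        refine ⟨mem_stab.2 fun Q hQ => ?_, hxC⟩
        rcases Finset.mem_insert.1 hQ with rfl | hQ
        exacts [mem_normalizer_pivot hch (mem_stab.1 hx)
          (Or.inr (Subgroup.mem_centralizer_singleton_iff.1 hxC)), mem_stab.1 hx Q hQ]
      rw [hfl]
      refine ⟨h1, h2, fun e => ?_, ?_, fun e => ?_, ?_⟩
      · rw [e, Finset.card_singleton] at hcard; omega
      · have hi : pivot u (insert (pivot u s) s) ∈ insert (pivot u s) s := by
          rw [h3]; exact Finset.mem_insert_self _ _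
        rw [flip, if_pos hi, h3, Finset.erase_insert hR]
      · exact absurd (Finset.insert_eq_self.1 e) hR
      · rw [hstabeq, hcard, show s.card + 1 - 1 = s.card - 1 + 1 by omega, pow_succ, mul_neg_one,
          neg_smul]
  refine Finset.sum_involution (fun s _ => flip u s) ?_ ?_ ?_ ?_
  · intro s hs; rw [(key s hs).2.2.2.2.2, add_neg_cancel]
  · intro s hs _; exact (key s hs).2.2.2.2.1
  · intro s hs
    exact Finset.mem_erase.2 ⟨(key s hs).2.2.1, (hS _).2 ⟨(key s hs).1, (key s hs).2.1⟩⟩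
  · intro s hs; exact (key s hs).2.2.2.1

end Cfsg.Agent.H40.ChainPairing
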