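import Cfsg.Agent.H40.BlockDefect
import Cfsg.Agent.H42.MaxIdeal

/-!
# A character vanishing on the elements of order `p` has defect zero
-/

set_option autoImplicit false
set_option linter.unusedSectionVars false

namespace Cfsg.Agent.H40

open Cfsg.Agent.H41 (localRing res ResField omegaBar groupAlgCenter centerOfFun)

variable {G : Type*} [Group G] [Finite G] {p : ℕ} [Fact p.Prime]

open scoped Classical in
/-- Knörr's vanishing criterion. -/
theorem factorization_eq_of_vanish_order_p (χ : Cfsg.IrrCharacter G)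
    (hvan : ∀ g : G, orderOf g = p → (χ : G → ℂ) g = 0) :
    (Cfsg.charDegree (χ : G → ℂ)).factorization p = (Nat.card G).factorization p := by
  have : Fintype G := Fintype.ofFinite G
  have hp : p.Prime := Fact.out
  obtain ⟨n, ρ, hirr, hρ⟩ := χ.2
  have hdvdG : Cfsg.charDegree (χ : G → ℂ) ∣ Nat.card G := by
    rw [Cfsg.Agent.H42.charDegree_of_eq_nat (χ := (χ : G → ℂ)) (by rw [← hρ, ρ.char_one]),
      Module.finrank_fin_fun]
    have := hirr
    have h2 := Cfsg.Agent.H25.finrank_dvd_card ρ
    rwa [Module.finrank_fin_fun] at h2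
  refine le_antisymm ((Nat.factorization_le_iff_dvd (Cfsg.Agent.H42.charDegree_pos χ).ne'
    Nat.card_pos.ne').2 hdvdG p) (not_lt.1 fun hlt => ?_)
  obtain ⟨M, hM⟩ := Cfsg.Agent.H42.exists_isPModular hp
  have := hM.2.1
  have := Cfsg.Agent.H41.IsPModular.charP hM
  let B := Cfsg.blockOf M (χ : G → ℂ)
  have hB : Cfsg.IsPBlock M B := Cfsg.Agent.H41.isPBlock_blockOf χ
  have hχ : χ ∈ B := Cfsg.Agent.H41.mem_blockOf_self χ
  obtain ⟨D, hD⟩ := exists_isDefectGroup hM hB
  have hd := sub_blockDefect_le hM hB hχ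
  have hDnt : Nontrivial D := by
    rw [← Finite.one_lt_card_iff_nontrivial, card_defectGroup hM hB hD]
    exact Nat.one_lt_pow (by omega) hp.one_lt
  have hDp := isPGroup_of_isDefectGroup hD
  obtain ⟨m, hm0, hm⟩ := IsPGroup.nontrivial_iff_card hDp |>.1 hDnt
  have := hDp.center_nontrivial
  obtain ⟨k, hk0, hk⟩ := IsPGroup.nontrivial_iff_card (hDp.to_subgroup (Subgroup.center D)) |>.1 this
  obtain ⟨zc, hzc⟩ := exists_prime_orderOf_dvd_card' (G := Subgroup.center D) p
    (hk ▸ dvd_pow_self p hk0.ne')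
  let z : G := ((zc : D) : G)
  have hzord : orderOf z = p := by
    simp only [z, Subgroup.orderOf_coe, hzc]
  let U := Subgroup.zpowers z
  have hU : IsPGroup p U := IsPGroup.of_card (n := 1) (by rw [Nat.card_zpowers, hzord, pow_one])
  have hUD : U ≤ D := Subgroup.zpowers_le.2 (zc : D).2
  -- the sum of all elements of order dividing `p`
  let f : G → ℕ := fun x => if x ^ p = 1 then 1 else 0
  have hf : ∀ x y, f (y * x * y⁻¹) = f x := by
    intro x y
    simp only [f]
    rw [conj_pow]
    by_cases hx : x ^ p = 1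
    · rw [if_pos hx, if_pos (by rw [hx, mul_one, mul_inv_cancel])]
    · rw [if_neg hx, if_neg fun e => hx (by simpa using e)]
  let S : groupAlgCenter (localRing M) G :=
    centerOfFun (fun x => (f x : localRing M)) fun x y => by rw [hf x y]
  have hω : Cfsg.Agent.H41.omegaLoc M χ S = 1 := by
    apply Subtype.ext
    rw [Cfsg.Agent.H41.coe_omegaLoc, Cfsg.Agent.H41.omega_apply]
    simp only [Cfsg.Agent.H41.coeff_incl, S, Cfsg.Agent.H41.coeff_centerOfFun]
    rw [Finset.sum_eq_single (1 : G)]
    · simp [f, Cfsg.Agent.H26.irr_one_ne_zero χ]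
    · intro x _ hx
      by_cases hxp : x ^ p = 1
      · rw [hvan x (orderOf_eq_prime hxp hx), mul_zero]
      · simp [f, hxp]
    · simp
  let S' : groupAlgCenter (ResField M) G := Cfsg.Agent.H41.redZ M S
  have hS1 : omegaBar M χ S' = 1 := by rw [Cfsg.Agent.H41.omegaBar_redZ, hω, map_one]
  have hS0 : omegaBar M χ (S' * S') = 0 := by
    refine hom_eq_zero_of_classSum (omegaBar M χ) fun g hg => ?_
    by_contra hne
    have hne' : ¬ Cfsg.MemLocalIdeal M (Cfsg.centralChar (χ : G → ℂ) g) :=
      fun e => hne ((Cfsg.Agent.H41.omegaBar_classSumZ_eq_zero_iff M χ g).2 e)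
    obtain ⟨c, hc, hcD⟩ := exists_conj_centralizes_defectGroup hM hB hχ hne' hD
    refine hg ?_
    rw [← Cfsg.Agent.H41.coeff_center_eq_of_isConj (S' * S') hc]
    have hcU : c ∈ Subgroup.centralizer (U : Set G) := Subgroup.centralizer_le hUD hcD
    rw [MulMemClass.coe_mul, coeff_mul_centralizer hU (coeffInvariant_of_mem_center U S'.2)
      (coeffInvariant_of_mem_center U S'.2) hcU]
    let C := Subgroup.centralizer (U : Set G)
    have hzU : z ∈ U := Subgroup.mem_zpowers z
    have hzC : z ∈ C := Subgroup.mem_centralizer_iff.2 fun q hq => by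
      obtain ⟨i, rfl⟩ := Subgroup.mem_zpowers_iff.1 hq
      exact (Commute.refl z).zpow_left i
    have hzcomm : ∀ x ∈ C, Commute z x := fun x hx => Subgroup.mem_centralizer_iff.1 hx z hzU
    let F : G → ResField M := fun x =>
      ((S' : MonoidAlgebra (ResField M) G).coeff x) *
        ((S' : MonoidAlgebra (ResField M) G).coeff (x⁻¹ * c))
    have hF : ∀ x ∈ C, F (x * z) = F x := by
      intro x hx
      have hval : ∀ a, (S' : MonoidAlgebra (ResField M) G).coeff a = (f a : ResField M) := fun a => by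
        simp [S', S]
      have hzp : z ^ p = 1 := hzord ▸ pow_orderOf_eq_one z
      have h1 : f (x * z) = f x := by
        simp only [f, (hzcomm x hx).symm.mul_pow, hzp, mul_one]
      have h2 : f ((x * z)⁻¹ * c) = f (x⁻¹ * c) := by
        have hw : Commute z⁻¹ (x⁻¹ * c) :=
          (hzcomm _ (mul_mem (inv_mem hx) hcU)).inv_left
        simp only [f, mul_inv_rev, mul_assoc, hw.mul_pow, inv_pow, hzp, inv_one, one_mul]
      simp only [F, hval, h1, h2]
    let Z : Subgroup C := Subgroup.zpowers (⟨z, hzC⟩ : C)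
    have hZ : IsPGroup p Z := IsPGroup.of_card (n := 1) (by
      rw [Nat.card_zpowers, Subgroup.orderOf_mk, hzord, pow_one])
    let _ : MulAction Z C :=
      { smul := fun q x => (q : C) * x
        one_smul := fun x => one_mul x
        mul_smul := fun q q' x => mul_assoc (q : C) (q' : C) x }
    have hsum : ∑ x : C, F x = 0 := by
      rw [sum_eq_sum_fixedPoints hZ (fun w => by rw [nsmul_eq_mul, CharP.cast_eq_zero, zero_mul]) _
        fun q x => ?_]
      · refine Finset.sum_eq_zero fun x hx => ?_
        have := (Finset.mem_filter.1 hx).2 (⟨⟨z, hzC⟩, Subgroup.mem_zpowers _⟩ : Z)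
        have h1 : (⟨z, hzC⟩ : C) = 1 := mul_eq_right.1 this
        exact absurd (orderOf_eq_one_iff.2 (congrArg Subtype.val h1)) (by rw [hzord]; exact hp.ne_one)
      · obtain ⟨i, hi⟩ := Subgroup.mem_zpowers_iff.1 q.2
        show F ((((q : C) * x : C)) : G) = F x
        rw [← hi]
        have key : ∀ i : ℕ, ∀ x : C, F ((((⟨z, hzC⟩ : C) ^ i * x : C)) : G) = F x := by
          intro i
          induction i with
          | zero => simp
          | succ i ih =>
            intro x
            rw [pow_succ, mul_assoc, ih ((⟨z, hzC⟩ : C) * x)]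
            show F (z * x) = F x
            rw [(hzcomm x x.2).eq, hF x x.2]
        obtain ⟨i', hi'⟩ := (isOfFinOrder_of_finite (⟨z, hzC⟩ : C)).mem_powers_iff_mem_zpowers.2
          ⟨i, rfl⟩
        simp only at hi'
        rw [← hi', key]
    rw [← hsum, ← Finset.sum_subtype (p := (· ∈ C)) (Finset.univ.filter (· ∈ C)) (fun x => by simp [C]) F]
  rw [map_mul, hS1, one_mul] at hS0
  exact one_ne_zero hS0

end Cfsg.Agent.H40
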