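import Cfsg.Agent.H22.PairStab
import Cfsg.Agent.H26.CoverDefect

/-!
# The blocks over a block of the centraliser of a normal `p`-subgroup
-/

set_option autoImplicit false
set_option linter.unusedSectionVars false

namespace Cfsg.Agent.H40

open Cfsg
open Cfsg.Agent.H22 (IsPairEl IsBlockEl IsCent Below el elTop Split cut)
open Cfsg.Agent.H26 (FRSetup CoversG)
open Cfsg.Agent.H41 (ResField localRing groupAlgCenter idemBar omegaBar)

variable {G : Type*} [Group G] [Fintype G] {p : ℕ} [Fact p.Prime] {M : Ideal Cfsg.AlgInt}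
  [M.IsMaximal] [CharP (ResField M) p] {P : Subgroup G}

/-- For a normal `p`-subgroup the covering characters of a pair lie in the block of the pair. -/
theorem mem_of_covers_of_pair (hP : IsPGroup p P) [P.Normal]
    [(Subgroup.centralizer (P : Set G)).Normal] [Fintype (Subgroup.centralizer (P : Set G))]
    {e : Set (Cfsg.IrrCharacter (Subgroup.centralizer (P : Set G)))} {T : Subgroup G}
    (S : FRSetup (Subgroup.centralizer (P : Set G)) M e T) {B : Set (Cfsg.IrrCharacter G)}
    (hBe : Cfsg.IsBrauerPairOf p M B P e) {χ : Cfsg.IrrCharacter G} (hc : CoversG e χ) :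
    χ ∈ B := by
  classical
  have hB' : Cfsg.IsPBlock M (Cfsg.blockOf M (χ : G → ℂ)) := H41.isPBlock_blockOf χ
  have hχ : χ ∈ Cfsg.blockOf M (χ : G → ℂ) := H41.mem_blockOf_self χ
  set B' := Cfsg.blockOf M (χ : G → ℂ)
  set w : groupAlgCenter (ResField M) G := idemBar hB'
  have hw : H26.orbitBar S * w = w := H26.orbitBar_mul_idemBar S hB' hχ hc
  have htop : elTop M B' = (w : MonoidAlgebra (ResField M) G) := by
    rw [elTop, H22.bk_eq hB']
    exact H40.ext_coeff fun x => H22.coeff_emb_apply (f := MonoidHom.id G) (fun _ _ h => h) _ x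
  have hel : H26.idemInG S.isBlock = el M (Subgroup.centralizer (P : Set G)) e := by
    rw [el, H22.bk_eq S.isBlock]
    rfl
  have hblk := H22.isBlockEl_elTop hB'
  have hsupp : H22.Supp (Subgroup.centralizer (P : Set G)) (elTop M B') :=
    H22.supp_centralizer_of_idem hP le_top (Subgroup.normalizer_eq_top (H := P)).ge hblk.cent
      hblk.idem
  have hocc : Below (elTop M B') (P, el M (Subgroup.centralizer (P : Set G)) e) := by
    show cut (Subgroup.centralizer (P : Set G)) (elTop M B') * el M (Subgroup.centralizer (P : Set G)) e = el M (Subgroup.centralizer (P : Set G)) e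
    rw [H22.cut_of_supp hsupp]
    refine ((H22.isBlockEl_el S.isBlock).prim _ ⟨hsupp, hblk.cent.inv.mono le_top⟩
      hblk.idem).resolve_left fun h0 => ?_
    have h1 : H26.idemInG S.isBlock * (w : MonoidAlgebra (ResField M) G) = 0 := by
      rw [hel, ← h0, htop]
      exact Subalgebra.mem_center_iff.1 w.2 _
    have h2 := congrArg (omegaBar M χ) (hw.symm.trans (H26.orbitBar_mul_eq_zero S h1))
    rw [H41.omegaBar_idemBar_self hB' hχ, map_zero] at h2
    exact one_ne_zero h2
  have hpair := H22.isPairEl_of_isBrauerPair hBe.1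
  obtain ⟨ε, -, huniq⟩ := H22.existsUnique_below (H22.split M G) hpair
  have h := (huniq _ ⟨hblk, hocc⟩).trans
    (huniq _ ⟨H22.isBlockEl_elTop hBe.2.1, (H22.isBrauerPairOf_iff hBe.2.1 hBe.1).1 hBe⟩).symm
  exact H22.elTop_inj hB' hBe.2.1 h ▸ hχ

open scoped Classical in
/-- The idempotent of the block of a pair at a normal `p`-subgroup is the orbit sum. -/
theorem blockCoeff_eq_indFun (hP : IsPGroup p P) [P.Normal]
    [(Subgroup.centralizer (P : Set G)).Normal] [Fintype (Subgroup.centralizer (P : Set G))]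
    {e : Set (Cfsg.IrrCharacter (Subgroup.centralizer (P : Set G)))} {T : Subgroup G}
    (S : FRSetup (Subgroup.centralizer (P : Set G)) M e T) {B : Set (Cfsg.IrrCharacter G)}
    (hBe : Cfsg.IsBrauerPairOf p M B P e) (g : G) :
    Cfsg.blockCoeff B g = Cfsg.indFun T (H26.extB e T) g := by
  have : Fintype T := Fintype.ofFinite T
  -- some member covers
  obtain ⟨θ, hθ⟩ := H41.IsPBlock.nonempty S.isBlock
  obtain ⟨χ₀, hχ₀⟩ := H43.exists_above (Subgroup.centralizer (P : Set G)) θ
  have hc₀ : CoversG e χ₀ := ⟨θ, hθ, by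
    rw [H43.classInner_eq_mult (H43.isCharacter_restr _ χ₀)]
    exact Nat.cast_ne_zero.2 hχ₀⟩
  have hcov : ∀ η : Cfsg.IrrCharacter G, CoversG e η ↔ η ∈ B :=
    fun η => ⟨mem_of_covers_of_pair hP S hBe, fun hη => S.coversG_congr
      (H41.sameBlock_of_mem hBe.2.1 (mem_of_covers_of_pair hP S hBe hc₀) hη) hc₀⟩
  have hz : H41.incl M (H26.orbitLoc S) = H41.blockIdem B := H41.center_ext_omega fun η => by
    rw [H26.omega_orbitLoc, H41.omega_blockIdem]
    exact if_congr (hcov η) rfl rfl
  have h := congrArg (fun z : groupAlgCenter ℂ G => (z : MonoidAlgebra ℂ G).coeff g) hz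
  simp only [H41.coeff_incl, H41.coeff_blockIdem, H26.orbitLoc, H41.coeff_centerOfFun] at h
  exact h.symm

end Cfsg.Agent.H40
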