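import Cfsg.Agent.H26.CoverDefect
import Cfsg.Agent.H41.Covering
import Cfsg.Agent.H22.PairDefectDict

/-!
# A defect class inside a normal subgroup of `p`-power index
-/

set_option autoImplicit false
set_option linter.unusedSectionVars false

namespace Cfsg.Agent.H40

open Cfsg
open Cfsg.Agent.H41 (ResField localRing res omegaLoc classSumZ twistIrr)

variable {L : Type*} [Group L] [Fintype L] {p : ℕ} [Fact p.Prime] {M : Ideal Cfsg.AlgInt}
  [M.IsMaximal] [CharP (ResField M) p]

open scoped Classical in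
/-- If the defect group of a block over `c` lies in `N`, nothing outside `N` stabilises `c`, for
`N` normal of `p`-power index. -/
theorem mem_of_stab_of_defect_le (hM : Cfsg.IsPModular p M) (N : Subgroup L) [N.Normal] [Fintype N]
    (hidx : ∃ k : ℕ, N.index = p ^ k) {d : Set (Cfsg.IrrCharacter L)} (hd : Cfsg.IsPBlock M d)
    {φ : Cfsg.IrrCharacter L} (hφ : φ ∈ d) {θ : Cfsg.IrrCharacter N}
    (hθ : Cfsg.classInner (fun n : N => (φ : L → ℂ) n) (θ : N → ℂ) ≠ 0)
    {Q : Subgroup L} (hQ : Cfsg.IsDefectGroup p M d Q) (hQN : Q ≤ N) {t : L}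
    (ht : Cfsg.SameBlock M (θ : N → ℂ) (twistIrr N θ t : N → ℂ)) : t ∈ N := by
  obtain ⟨g, hg, hQg⟩ := H40.isDefectGroup_iff.1 hQ
  obtain ⟨k, hk⟩ := hidx
  -- the centraliser of `g` lies in `N`
  have hCN : Subgroup.centralizer ({g} : Set L) ≤ N := by
    set C := Subgroup.centralizer ({g} : Set L)
    have hle : Q ≤ C ⊓ N := le_inf hQg.1 hQN
    have h1 : (C ⊓ N).relIndex C ∣ p ^ k := by
      rw [Subgroup.inf_relIndex_left, ← hk]
      exact Subgroup.relIndex_dvd_index_of_normal N C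
    have h2 : ¬ p ∣ (C ⊓ N).relIndex C := fun h =>
      hQg.2.2 (h.trans (Dvd.intro_left _ (Subgroup.relIndex_mul_relIndex Q (C ⊓ N) C hle inf_le_left)))
    have h3 : (C ⊓ N).relIndex C = 1 := by
      obtain ⟨i, -, hi⟩ := (Nat.dvd_prime_pow (Fact.out : p.Prime)).1 h1
      rcases Nat.eq_zero_or_pos i with rfl | hi0
      · simpa using hi
      · exact absurd (hi ▸ dvd_pow_self p hi0.ne') h2
    exact fun x hx => (Subgroup.relIndex_eq_one.1 h3 hx).2
  have hgN : g ∈ N := hCN (Subgroup.mem_centralizer_singleton_iff.2 rfl)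
  let g' : N := ⟨g, hgN⟩
  -- the residue of the central character of `θ` along a conjugate of `g`
  let cj : L → N := fun l => ⟨l * g * l⁻¹, ‹N.Normal›.conj_mem g hgN l⟩
  let F : L → ResField M := fun l => res M (omegaLoc M θ (classSumZ (localRing M) (cj l)))
  have hF : ∀ (l : L) (n : N), F ((n : L) * l) = F l := by
    intro l n
    simp only [F]
    congr 2
    apply Subtype.ext
    rw [H41.coe_classSumZ, H41.coe_classSumZ]
    refine H40.classSum_eq_of_isConj (isConj_iff.2 ⟨n⁻¹, Subtype.ext ?_⟩)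
    simp [cj, mul_assoc]
  by_contra htN
  let : Fintype (L ⧸ N) := Fintype.ofFinite _
  let τ : Subgroup (L ⧸ N) := Subgroup.zpowers (t : L ⧸ N)
  have hτ : IsPGroup p τ := by
    obtain ⟨i, -, hi⟩ := (Nat.dvd_prime_pow (Fact.out : p.Prime)).1
      (hk ▸ Subgroup.index_eq_card N ▸ orderOf_dvd_natCard (t : L ⧸ N))
    exact IsPGroup.of_card (n := i) (by rw [Nat.card_zpowers, hi])
  let Fq : L ⧸ N → ResField M := fun q => F q.out
  have hFq : ∀ l : L, Fq (l : L ⧸ N) = F l := by
    intro l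
    obtain ⟨n, hn⟩ := QuotientGroup.mk_out_eq_mul N l
    simp only [Fq, hn]
    rw [show l * (n : L) = ((⟨l * n * l⁻¹, ‹N.Normal›.conj_mem _ n.2 l⟩ : N) : L) * l by
      show l * (n : L) = l * (n : L) * l⁻¹ * l; group]
    exact hF l _
  have hstep : ∀ q : L ⧸ N, Fq ((t : L ⧸ N) * q) = Fq q := by
    intro q
    obtain ⟨l, rfl⟩ := QuotientGroup.mk_surjective q
    rw [← QuotientGroup.mk_mul, hFq, hFq]
    simp only [F]
    have h := ht (cj l)
    rw [H41.centralChar_twistIrr, ← H41.coe_omegaLoc_classSumZ (M := M),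
      ← H41.coe_omegaLoc_classSumZ (M := M), H41.memLocalIdeal_sub_iff] at h
    rw [show cj (t * l) = ⟨t * (cj l : L) * t⁻¹, ‹N.Normal›.conj_mem _ (cj l).2 t⟩ from
      Subtype.ext (show t * l * g * (t * l)⁻¹ = t * (l * g * l⁻¹) * t⁻¹ by group)]
    exact h.symm
  have hzero : ∑ q : L ⧸ N, Fq q = 0 := by
    rw [H40.sum_eq_sum_fixedPoints (P := τ) hτ (fun m => by
      rw [nsmul_eq_mul, CharP.cast_eq_zero, zero_mul]) Fq fun u q => ?_]
    · rw [Finset.filter_eq_empty_iff.2 fun q _ hq => htN ?_, Finset.sum_empty]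
      have h := hq ⟨_, Subgroup.mem_zpowers (t : L ⧸ N)⟩
      rw [Subgroup.smul_def, smul_eq_mul, mul_eq_right] at h
      exact (QuotientGroup.eq_one_iff t).1 h
    · obtain ⟨m, hm⟩ := (mem_powers_iff_mem_zpowers (x := (t : L ⧸ N))).2 u.2
      rw [Subgroup.smul_def, smul_eq_mul, ← hm]
      induction m generalizing u with
      | zero => simp
      | succ m ih =>
        simp only [pow_succ', mul_assoc, hstep]
        exact ih ⟨_, Subgroup.npow_mem_zpowers _ m⟩ rfl
  -- the central character of `φ` at `g` is the sum over the cosets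
  refine hg.2.2 φ hφ ?_
  rw [show g = ((g' : N) : L) from rfl, H41.centralChar_eq_inducedCentralChar N φ hθ g',
    Cfsg.inducedCentralChar, finsum_mem_eq_finite_toFinset_sum _ (Set.toFinite _)]
  let key : N → L ⧸ N := fun m => if h : IsConj g (m : L) then
    ((isConj_iff.1 h).choose : L ⧸ N) else 1
  have hkey : ∀ (m : N) (l : L), (m : L) = l * g * l⁻¹ → key m = (l : L ⧸ N) := by
    intro m l hl
    have h : IsConj g (m : L) := isConj_iff.2 ⟨l, hl.symm⟩
    simp only [key, dif_pos h]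
    set c := (isConj_iff.1 h).choose
    have hc : c * g * c⁻¹ = l * g * l⁻¹ := (isConj_iff.1 h).choose_spec.trans hl
    refine QuotientGroup.eq.2 (hCN (Subgroup.mem_centralizer_singleton_iff.2 ?_))
    calc c⁻¹ * l * g = c⁻¹ * (l * g * l⁻¹) * l := by group
      _ = c⁻¹ * (c * g * c⁻¹) * l := by rw [hc]
      _ = g * (c⁻¹ * l) := by group
  rw [← Finset.sum_fiberwise_of_maps_to (t := (Finset.univ : Finset (L ⧸ N))) (g := key)
    fun _ _ => Finset.mem_univ _]
  have hfib : ∀ q : L ⧸ N, ∀ m : N,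
      (IsConj g (m : L) ∧ key m = q) ↔ IsConj (cj q.out) m := by
    intro q m
    constructor
    · rintro ⟨hm, hq⟩
      obtain ⟨l, hl⟩ := isConj_iff.1 hm
      rw [hkey m l hl.symm] at hq
      obtain ⟨n, hn⟩ := QuotientGroup.mk_out_eq_mul N l
      rw [hq] at hn
      refine isConj_iff.2 ⟨⟨l * (n : L)⁻¹ * l⁻¹, ‹N.Normal›.conj_mem _ (inv_mem n.2) l⟩,
        Subtype.ext ?_⟩
      simp only [cj, Subgroup.coe_mul, Subgroup.coe_inv, hn, ← hl]
      group
    · intro h
      obtain ⟨n, hn⟩ := isConj_iff.1 h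
      have hm : (m : L) = ((n : L) * q.out) * g * ((n : L) * q.out)⁻¹ := by
        rw [← hn]
        simp only [cj, Subgroup.coe_mul, Subgroup.coe_inv]
        group
      refine ⟨isConj_iff.2 ⟨_, hm.symm⟩, ?_⟩
      rw [hkey m _ hm, QuotientGroup.mk_mul, (QuotientGroup.eq_one_iff _).2 n.2, one_mul,
        QuotientGroup.out_eq']
  have hinner : ∀ q : L ⧸ N,
      ∑ m ∈ (Set.toFinite {m : N | IsConj ((g' : N) : L) (m : L)}).toFinset.filter
          (fun m => key m = q), (θ : N → ℂ) m / (θ : N → ℂ) 1 =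
        (omegaLoc M θ (classSumZ (localRing M) (cj q.out)) : ℂ) := by
    intro q
    rw [H41.coe_omegaLoc_classSumZ, Cfsg.centralChar,
      H25.index_centralizer_eq_card_class (cj q.out),
      Finset.sum_congr (s₂ := Finset.univ.filter (fun m : N => IsConj (cj q.out) m))
        (g := fun _ => (θ : N → ℂ) (cj q.out) / (θ : N → ℂ) 1)
        (by ext m; simpa using hfib q m) fun m hm => by
          rw [H26.irr_eq_of_isConj θ (Finset.mem_filter.1 hm).2],
      Finset.sum_const, nsmul_eq_mul, ← mul_div_assoc, Nat.card_eq_fintype_card,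
      Fintype.card_subtype]
  rw [Finset.sum_congr rfl fun q _ => hinner q, ← AddSubmonoidClass.coe_finsetSum,
    H41.memLocalIdeal_coe_iff, map_sum]
  exact hzero

end Cfsg.Agent.H40
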