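import Cfsg.Agent.H26.CoverDefect
import Cfsg.Agent.H22.PairDefectDict

/-!
# A covered block stable under a defect group
-/

set_option autoImplicit false
set_option linter.unusedSectionVars false

namespace Cfsg.Agent.H40

open Cfsg
open Cfsg.Agent.H26 (FRSetup CoversG)
open Cfsg.Agent.H41 (ResField groupAlgCenter idemBar)
open Cfsg.Agent.H43 (irrCongr irrConj)

variable {G : Type*} [Group G] [Fintype G] {p : ℕ} [Fact p.Prime] {M : Ideal Cfsg.AlgInt}
  [M.IsMaximal]

/-- The traces on a normal subgroup of two defect groups have the same order. -/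
theorem card_inf_normal_eq (hM : Cfsg.IsPModular p M) {B : Set (Cfsg.IrrCharacter G)}
    (hB : Cfsg.IsPBlock M B) (N : Subgroup G) [N.Normal] {P P' : Subgroup G}
    (hP : Cfsg.IsDefectGroup p M B P) (hP' : Cfsg.IsDefectGroup p M B P') :
    Nat.card (P' ⊓ N : Subgroup G) = Nat.card (P ⊓ N : Subgroup G) := by
  have := H41.IsPModular.charP hM
  obtain ⟨g, -, hg⟩ := H22.IsDefEl.exists_conj_eq ((H22.isDefectGroup_top_iff hM hB).1 hP)
    ((H22.isDefectGroup_top_iff hM hB).1 hP')
  have hN : H22.cS g N = N := H22.cS_eq_self (by rw [Subgroup.normalizer_eq_top]; trivial)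
  rw [← H22.card_cS g (P' ⊓ N), H22.cS_inf, hN, hg]

open scoped Classical in
/-- Every defect group of `B` stabilises some covered block of `N` and meets `N` in one of its
defect groups. -/
theorem exists_stable_covered (hM : Cfsg.IsPModular p M) {N : Subgroup G} [N.Normal] [Fintype N]
    {B : Set (Cfsg.IrrCharacter G)} (hB : Cfsg.IsPBlock M B) {P : Subgroup G}
    (hP : Cfsg.IsDefectGroup p M B P) :
    ∃ c : Set (Cfsg.IrrCharacter N), Cfsg.IsPBlock M c ∧
      (∀ u ∈ P, ∀ θ ∈ c, irrConj N u θ ∈ c) ∧ (∃ χ ∈ B, CoversG c χ) ∧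
      Cfsg.IsDefectGroup p M c ((P ⊓ N).subgroupOf N) := by
  have := H41.IsPModular.charP hM
  obtain ⟨x, hdx, hPx⟩ := H40.isDefectGroup_iff.1 hP
  obtain ⟨χ, hχ⟩ := H41.IsPBlock.nonempty hB
  -- some covered block
  obtain ⟨θ₀, hθ₀⟩ : ∃ θ : Cfsg.IrrCharacter N,
      Cfsg.classInner (fun n : N => χ.1 n) θ.1 ≠ 0 := by
    obtain ⟨θ, hθ⟩ := H43.exists_restrMult_ne_zero N χ
    exact ⟨θ, by
      rw [H43.classInner_eq_mult (H43.isCharacter_restr N χ)]; exact Nat.cast_ne_zero.2 hθ⟩
  have hb : Cfsg.IsPBlock M (Cfsg.blockOf M (θ₀ : N → ℂ)) := H41.isPBlock_blockOf θ₀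
  set b := Cfsg.blockOf M (θ₀ : N → ℂ)
  have hcov : CoversG b χ := ⟨θ₀, H41.mem_blockOf_self θ₀, hθ₀⟩
  set T := H26.blockStab N b
  have S : FRSetup N M b T := H26.frSetup_blockStab hb
  let : Fintype (G ⧸ T) := Fintype.ofFinite _
  let : Fintype T := Fintype.ofFinite _
  have hPp : IsPGroup p P := H40.isPGroup_of_isDefectGroup hP
  have hxP : x ∈ Subgroup.centralizer (P : Set G) :=
    H40.le_centralizer_singleton_iff.1 hPx.1
  have hne : ((H26.orbitBar S * idemBar hB : groupAlgCenter (ResField M) G) :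
      MonoidAlgebra (ResField M) G).coeff x ≠ 0 := by
    rw [H26.orbitBar_mul_idemBar S hB hχ hcov, H41.coeff_idemBar_ne_zero_iff]
    exact ⟨hdx.1, hdx.2.1⟩
  rw [Subalgebra.coe_mul, H40.coeff_mul_centralizer hPp
    (H40.coeffInvariant_of_mem_center P (H26.orbitBar S).2)
    (H40.coeffInvariant_of_mem_center P (idemBar hB).2) hxP] at hne
  obtain ⟨h, hh, hne⟩ := Finset.exists_ne_zero_of_sum_ne_zero hne
  have hhP := (Finset.mem_filter.1 hh).2
  have hne' := left_ne_zero_of_mul hne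
  rw [H26.coeff_orbitBar] at hne'
  set E := H26.idemInG S.isBlock with hEdef
  have hE : ∀ y : G, E.coeff y = if hy : y ∈ N then
      ((idemBar hb : groupAlgCenter (ResField M) N) : MonoidAlgebra (ResField M) N).coeff ⟨y, hy⟩
      else 0 := fun y => by
    rw [hEdef, H26.idemInG, H26.coeff_mapDomain_subtype]
  -- `E` is invariant under `T`
  have hTinv : ∀ (a : G) (t : G), t ∈ T → E.coeff ((a * t)⁻¹ * h * (a * t)) =
      E.coeff (a⁻¹ * h * a) := by
    intro a t ht
    rw [show (a * t)⁻¹ * h * (a * t) = t⁻¹ * (a⁻¹ * h * a) * t by group, hE, hE]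
    set y := a⁻¹ * h * a
    by_cases hy : y ∈ N
    · have hy' : t⁻¹ * y * t ∈ N := by simpa using ‹N.Normal›.conj_mem y hy t⁻¹
      rw [dif_pos hy', dif_pos hy, H41.coeff_idemBar, H41.coeff_idemBar]
      refine congrArg _ (Subtype.ext ?_)
      have himg : irrCongr (MulAut.conjNormal t⁻¹) '' b = b := by
        refine H41.block_eq_of_mem_of_mem (H22.isPBlock_image _ hb) hb
          ⟨θ₀, H41.mem_blockOf_self θ₀, rfl⟩ ?_
        exact (S.stab t⁻¹).1 (inv_mem ht) θ₀ (H41.mem_blockOf_self θ₀)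
      show Cfsg.blockCoeff b ⟨_, hy'⟩ = Cfsg.blockCoeff b ⟨y, hy⟩
      conv_rhs => rw [← himg]
      rw [H22.blockCoeff_image]
      congr 1
      exact Subtype.ext (by simp [mul_assoc])
    · rw [dif_neg hy, dif_neg]
      intro hy'
      exact hy (by simpa [mul_assoc] using ‹N.Normal›.conj_mem _ hy' t)
  have hout : ∀ a : G, E.coeff ((a : G ⧸ T).out⁻¹ * h * (a : G ⧸ T).out) =
      E.coeff (a⁻¹ * h * a) := fun a => by
    obtain ⟨t, ht⟩ := QuotientGroup.mk_out_eq_mul T a
    rw [ht]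
    exact hTinv a t t.2
  -- some fixed coset
  obtain ⟨q, hqfix, hq⟩ : ∃ q : G ⧸ T, (∀ u : P, (u : G) • q = q) ∧
      E.coeff (q.out⁻¹ * h * q.out) ≠ 0 := by
    by_contra hno
    push Not at hno
    refine hne' ?_
    rw [H40.sum_eq_sum_fixedPoints (P := P) hPp (fun m => by
      rw [nsmul_eq_mul, CharP.cast_eq_zero, zero_mul]) _ fun u q => ?_]
    · exact Finset.sum_eq_zero fun q hq => hno q (fun u => (Finset.mem_filter.1 hq).2 u)
    · obtain ⟨a, rfl⟩ := QuotientGroup.mk_surjective q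
      rw [show u • (a : G ⧸ T) = (((u : G) * a : G) : G ⧸ T) from rfl, hout, hout]
      congr 1
      have hu := Subgroup.mem_centralizer_iff.1 hhP u u.2
      calc ((u : G) * a)⁻¹ * h * ((u : G) * a) = a⁻¹ * ((u : G)⁻¹ * (h * (u : G))) * a := by group
        _ = a⁻¹ * h * a := by rw [← hu, inv_mul_cancel_left]
  set a := q.out
  let σ : N ≃* N := MulAut.conjNormal a⁻¹
  have hcov' : ∃ χ ∈ B, CoversG (irrCongr σ '' b) χ := by
    refine ⟨χ, hχ, irrCongr σ θ₀, ⟨θ₀, H41.mem_blockOf_self θ₀, rfl⟩, ?_⟩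
    rw [H43.classInner_eq_mult (H43.isCharacter_restr N χ)]
    have := H43.restrMult_irrConj N χ a⁻¹ θ₀
    rw [H43.classInner_eq_mult (H43.isCharacter_restr N χ)] at hθ₀
    exact fun h0 => hθ₀ (by
      rw [Nat.cast_eq_zero] at h0 ⊢
      exact this.symm.trans h0)
  refine ⟨irrCongr σ '' b, H22.isPBlock_image σ hb, ?_, hcov', ?_⟩
  · -- stable
    rintro u hu _ ⟨θ, hθ, rfl⟩
    have hfix := hqfix ⟨u, hu⟩
    rw [show q = ((a : G) : G ⧸ T) from (QuotientGroup.out_eq' q).symm,
      MulAction.Quotient.smul_mk, smul_eq_mul, QuotientGroup.eq] at hfix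
    have ht : a⁻¹ * u * a ∈ T := by
      have := inv_mem hfix
      simpa [mul_assoc] using this
    refine ⟨irrConj N (a⁻¹ * u * a) θ, (S.stab _).1 ht θ hθ, Subtype.ext (funext fun n => ?_)⟩
    simp only [σ, H43.irrCongr_apply, H43.irrConj_apply]
    exact congrArg _ (Subtype.ext (by simp [mul_assoc]))
  · -- the defect group
    have hc := H22.isPBlock_image (M := M) σ hb
    set c := irrCongr σ '' b
    have hmem : a⁻¹ * h * a ∈ N := by
      by_contra hn
      rw [hE, dif_neg hn] at hq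
      exact hq rfl
    have hhN : h ∈ N := by simpa [mul_assoc] using ‹N.Normal›.conj_mem _ hmem a
    have hcoef : Cfsg.blockCoeff c ⟨h, hhN⟩ = Cfsg.blockCoeff b ⟨a⁻¹ * h * a, hmem⟩ := by
      rw [H22.blockCoeff_image]
      exact congrArg _ (Subtype.ext (by simp [σ, mul_assoc]))
    rw [hE, dif_pos hmem, H41.coeff_idemBar_ne_zero_iff, ← hcoef] at hq
    obtain ⟨D, hD⟩ := H40.exists_isDefectGroup hM hc
    set R : Subgroup N := (P ⊓ N).subgroupOf N
    have hRp : IsPGroup p R :=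
      (hPp.to_le inf_le_left).of_equiv (Subgroup.subgroupOfEquivOfLe inf_le_right).symm
    have hcent : R ≤ Subgroup.centralizer ({⟨h, hhN⟩} : Set N) := by
      intro y hy
      rw [Subgroup.mem_centralizer_singleton_iff]
      exact Subtype.ext (Subgroup.mem_centralizer_iff.1 hhP y (Subgroup.mem_subgroupOf.1 hy).1)
    have hsub := H40.classDefLE_defectGroup hM hc ⟨hq.1, hq.2⟩ hD R hRp hcent
    -- the orders agree
    have hDN : D.map N.subtype ≤ N := Subgroup.map_subtype_le D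
    have hDeq : (D.map N.subtype).subgroupOf N = D :=
      Subgroup.comap_map_eq_self_of_injective N.subtype_injective D
    obtain ⟨P', hP', hP'N⟩ :=
      H26.exists_defectGroup_inf_eq hM hc hDN (hDeq.symm ▸ hD) hB hcov'
    have hcard : Nat.card R = Nat.card D := by
      rw [Nat.card_congr (Subgroup.subgroupOfEquivOfLe (inf_le_right : P ⊓ N ≤ N)).toEquiv,
        ← card_inf_normal_eq hM hB N hP hP', hP'N,
        Nat.card_congr (Subgroup.equivMapOfInjective D _ N.subtype_injective).toEquiv]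
    obtain ⟨y, hy⟩ := hsub
    have hy' : H23.rconj y R = D :=
      Subgroup.eq_of_le_of_card_ge hy (by rw [H23.card_rconj, hcard])
    have := H22.isDefectGroup_conj hM hc hD y⁻¹
    rwa [← hy', H23.rconj_rconj, mul_inv_cancel, H23.rconj_one] at this

end Cfsg.Agent.H40
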